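import Cfsg.Agent.Leech.Coset

/-! Transfer from an abstract `[24, 12, 8]` code to the Golay code. -/

namespace CF.Perm

open Cfsg Finset CF.Leech
open scoped Pointwise

/-- support of a word, transported to the Golay coordinates -/
def tr (e : GolayPt ≃ Fin 24) (w : Fin 24 → ZMod 2) : Finset GolayPt := support₂ (w ∘ e)

variable {e : GolayPt ≃ Fin 24} {v w : Fin 24 → ZMod 2}

theorem tr_eq : tr e w = (support₂ w).map e.symm.toEmbedding := by
  ext p; simp [tr, support₂]

theorem card_tr : (tr e w).card = hammingNorm w := by rw [tr_eq, card_map]; rfl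

theorem tr_sub : tr e (v - w) = symmDiff (tr e v) (tr e w) := by
  rw [sub_eq_add_neg, show -w = w from funext fun p => ZMod.neg_eq_self_mod_two _]
  exact support₂_add _ _

theorem tr_word (s : Finset GolayPt) : tr e (word s ∘ e.symm) = s := by
  rw [tr, Function.comp_assoc, e.symm_comp_self, Function.comp_id, support₂_word]

theorem tr_injective : Function.Injective (tr e) := fun v w h => by
  have := congrArg word h
  rw [tr, tr, word_support₂, word_support₂] at this
  exact e.surjective.injective_comp_right this

theorem exists_tr (C : Submodule (ZMod 2) (Fin 24 → ZMod 2)) (hdim : Module.finrank (ZMod 2) C = 12)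
    (hmin : ∀ w ∈ C, w ≠ 0 → 8 ≤ hammingNorm w) :
    ∃ e : GolayPt ≃ Fin 24, ∀ w, w ∈ C ↔ tr e w ∈ CS := by
  let e := Fintype.equivFinOfCardEq card_pts
  let f := LinearEquiv.funCongrLeft (ZMod 2) (ZMod 2) e
  obtain ⟨σ, h⟩ := exists_perm_of_code (C.map f.toLinearMap).toAddSubgroup (by
      rw [show Nat.card (C.map f.toLinearMap).toAddSubgroup = Nat.card C from
        (Nat.card_congr (f.submoduleMap C).toEquiv).symm, Module.natCard_eq_pow_finrank (K := ZMod 2),
        hdim, Nat.card_zmod]; norm_num) (by
      rintro s ⟨w, hw, e'⟩ hs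
      have h1 : tr e w = s := by rw [← support₂_word s, ← e']; rfl
      rw [← h1, card_tr]
      exact hmin w hw fun h => hs (by rw [← h1, h]; exact support₂_zero))
  refine ⟨σ.symm.trans e, fun w => ?_⟩
  have h1 : tr (σ.symm.trans e) w = σ • tr e w := by
    ext p; simp [tr, mem_smul_finset, mem_support₂]
  rw [h1, h, tr, word_support₂]
  exact (Submodule.mem_map_equiv C (e := f)).trans (by
    rw [show f.symm (w ∘ e) = w from f.symm_apply_apply w]) |>.symm

end CF.Perm
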