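import Cfsg.Agent.Perm.ONS2
import Cfsg.Agent.Fgs2.SubCount

/-! Half-transitive automorphism groups (Isaacs–Passman). -/

namespace CF.Perm

open Subgroup MulAction

theorem fix_of_coprime {H X : Type*} [Group H] [Finite H] [Finite X] [MulAction H X]
    {r : X → X → Prop} (hr : Equivalence r) (hi : ∀ (h : H) x y, r x y → r (h • x) (h • y)) {x : X}
    {m : ℕ} (hm : ∀ y, r x y → (stabilizer H y).index = m) (hc : m.Coprime {y | r x y}.ncard)
    {h : H} (e : r x (h • x)) {y : X} (hy : r x y) : h • y = y := by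
  let L : Subgroup H := ⟨⟨⟨{h | r x (h • x)}, fun {a b} ha hb => hr.trans ha
    (mul_smul a b x ▸ hi a _ _ hb)⟩, by simpa using hr.refl x⟩, fun {a} ha => hr.symm
      (by simpa using hi a⁻¹ _ _ ha)⟩
  have h1 : ∀ y, r x y → (stabilizer L y).index * L.index = m := fun y hy =>
    hm y hy ▸ relIndex_mul_index (H := stabilizer H y) (K := L) fun g hg => hr.trans hy
      (hr.symm (by simpa [mem_stabilizer_iff.1 hg] using hi g _ _ hy))
  have h2 := Nat.eq_one_of_dvd_coprimes hc (Dvd.intro _ (h1 y hy)) (CF.Fgs2.dvd_ncard_of_orbits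
    (G := L) {y | r x y} (Set.toFinite _) (fun g y hy => hr.trans g.2 (hi g _ _ hy)) _ fun z hz =>
      dvd_of_eq (Nat.eq_of_mul_eq_mul_right (Nat.pos_of_ne_zero index_ne_zero_of_finite)
        ((h1 y hy).trans (h1 z hz).symm)))
  exact (index_eq_one.1 h2).ge (mem_top (⟨h, e⟩ : L))

variable {H V : Type*} [Group H] [Finite H] [Group V] [Finite V] [MulDistribMulAction H V]
  [FaithfulSMul H V] {m : ℕ} (hm : ∀ v : V, v ≠ 1 → (stabilizer H v).index = m)
include hm

omit [FaithfulSMul H V] [Finite H] in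
theorem half_coprime {B : Subgroup V} (hB : ∀ h : H, ∀ v ∈ B, h • v ∈ B) :
    m.Coprime (Nat.card B) := by
  obtain ⟨k, hk⟩ := CF.Fgs2.dvd_ncard_of_orbits (G := H) ((B : Set V) \ {1}) (Set.toFinite _)
    (fun h v hv => ⟨hB h v hv.1, fun e => hv.2 (by simpa using congrArg (h⁻¹ • ·) (Set.mem_singleton_iff.1 e))⟩) m
      fun v hv => (hm v hv.2).symm.dvd
  rw [show Nat.card B = (B : Set V).ncard from rfl, ← Set.ncard_sdiff_singleton_add_one B.one_mem, hk]
  simp

omit [FaithfulSMul H V] [Finite V] in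
theorem half_stabilizer_eq {v w : V} (hv : v ≠ 1) (hw : w ≠ 1)
    (h : stabilizer H v ≤ stabilizer H w) : stabilizer H v = stabilizer H w :=
  eq_of_le_of_card_ge h (Nat.eq_of_mul_eq_mul_right (Nat.pos_of_ne_zero index_ne_zero_of_finite)
    (((card_mul_index _).trans (card_mul_index _).symm).trans (by rw [hm v hv, hm w hw]))).le

variable (h0 : ∀ v : V, v ≠ 1 → stabilizer H v ≠ ⊥)
include h0

theorem half_irred {B : Subgroup V} (hB : ∀ h : H, ∀ v ∈ B, h • v ∈ B) : B = ⊥ ∨ B = ⊤ := by
  by_contra! h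
  obtain ⟨⟨b, hb⟩, h1⟩ := ne_bot_iff_exists_ne_one.1 h.1
  replace h1 : b ≠ 1 := fun e => h1 (Subtype.ext e)
  have h2 : ∀ c, c ∉ B → ∀ b ∈ B, stabilizer H c ≤ stabilizer H b := fun c hc b hb g hg => by
    have := fix_of_coprime (r := fun x y : V => x⁻¹ * y ∈ B) ⟨fun x => by simp, fun h => by
      simpa using inv_mem h, fun h h' => by simpa [mul_assoc] using mul_mem h h'⟩
      (fun h x y e => by simpa using hB h _ e) (x := c) (fun y hy => hm y fun e => hc (by simpa [e] using hy))
      (by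
        convert half_coprime hm hB
        exact (Set.ncard_preimage_of_injective_subset_range (mul_right_injective c⁻¹)
          ((mul_left_surjective c⁻¹).range_eq ▸ Set.subset_univ _) : _))
      (h := g) (by rw [hg]; simp) (y := c * b) (by simpa using hb)
    rwa [smul_mul', hg, mul_right_inj] at this
  obtain ⟨c, hc⟩ : ∃ c, c ∉ B := not_forall.1 fun e => h.2 (eq_top_iff.2 fun x _ => e x)
  have h3 : ∀ c, c ∉ B → stabilizer H c = stabilizer H b := fun c hc =>
    half_stabilizer_eq hm (fun e => hc (e ▸ one_mem B)) h1 (h2 c hc b hb)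
  refine h0 b h1 (eq_bot_iff.2 fun g hg => eq_of_smul_eq_smul (α := V) fun v => ?_)
  rw [one_smul]
  by_cases hv : v ∈ B
  exacts [h2 c hc v hv ((h3 c hc).ge hg), (h3 v hv).ge hg]

theorem half_comm (x z : V) : x * z = z * x := by
  have h1 : ∀ x : V, x ≠ 1 → ∀ g : V, stabilizer H x ≤ stabilizer H (g * x * g⁻¹) :=
    fun x hx g h hh => fix_of_coprime (r := IsConj) ⟨IsConj.refl, IsConj.symm, IsConj.trans⟩
      (fun h _ _ e => (MulDistribMulAction.toMonoidHom V h).map_isConj e)
      (fun y hy => hm y fun e => hx (isConj_one_left.1 (e ▸ hy))) (Nat.Coprime.coprime_dvd_right (by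
        have := index_stabilizer (ConjAct V) x
        rw [ConjAct.orbit_eq_carrier_conjClasses] at this
        rw [card_top, ← Nat.card_congr ConjAct.toConjAct.toEquiv.symm]
        convert index_dvd_card (stabilizer (ConjAct V) x)
        rw [this]
        congr 1)
        (half_coprime hm (B := ⊤) fun _ _ _ => trivial)) (by rw [hh])
      (isConj_iff.2 ⟨g, rfl⟩)
  have h2 : ∀ x z : V, x ≠ 1 → ¬ stabilizer H x ≤ stabilizer H z → x * z = z * x := by
    intro x z hx h
    by_contra e
    have hz : z ≠ 1 := by rintro rfl; simp at e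
    have h3 : x⁻¹ * (z * x * z⁻¹) ≠ 1 := fun e' => e (by
      rw [inv_mul_eq_one, eq_mul_inv_iff_mul_eq] at e'; exact e')
    refine h ((half_stabilizer_eq hm hx h3 fun g hg => ?_).trans
      (half_stabilizer_eq hm hz h3 fun g hg => ?_).symm).le
    · rw [mem_stabilizer_iff, smul_mul', smul_inv', hg, h1 x hx z hg]
    · have := h1 z hz x⁻¹ hg
      rw [inv_inv] at this
      rw [mem_stabilizer_iff, ← mul_assoc, ← mul_assoc, smul_mul', smul_inv', hg, this]
  by_cases hx : x = 1
  · simp [hx]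
  by_cases h : stabilizer H x ≤ stabilizer H z
  · obtain ⟨y, hy⟩ : ∃ y : V, ¬ stabilizer H x ≤ stabilizer H y := by
      by_contra! e
      exact h0 x hx (eq_bot_iff.2 fun g hg => eq_of_smul_eq_smul (α := V) fun v =>
        (e v hg).trans (one_smul H v).symm)
    have h3 := h2 x (z * y) hx fun e => hy fun g hg => by
      simpa [mem_stabilizer_iff.1 (h hg)] using mem_stabilizer_iff.1 (e hg)
    rwa [mul_assoc, ← h2 x y hx hy, ← mul_assoc, ← mul_assoc, mul_left_inj] at h3
  exact h2 x z hx h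

end CF.Perm
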