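import Cfsg.Agent.Perm.HallSym
import Cfsg.Agent.Perm.SylP
import Cfsg.Agent.Transfer.Frobenius
import Cfsg.Agent.Solv.Hall
import Cfsg.Agent.Invol.Closure

/-! Hall subgroups of alternating groups. -/

namespace CF.Perm

open Equiv Equiv.Perm Subgroup Finset Pointwise MulAction Cfsg CF.Transfer

/-- no carries when adding `s` and `k` in base `p ≤ s` -/
def NC (s k : ℕ) : Prop := ∀ p a : ℕ, p.Prime → p ≤ s → s % p ^ a + k % p ^ a < p ^ a

theorem NC.cop {s k m : ℕ} (h : NC s k) (hm : ∀ p, p.Prime → p ∣ m → p ≤ s) : m.Coprime ((s + k).choose k) :=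
  Nat.Coprime.symm (Nat.coprime_of_dvd fun p hp h1 h2 => by
    have := hp.factorization_pos_of_dvd (Nat.choose_pos (by omega)).ne' h1
    rw [Nat.factorization_choose' hp (Nat.lt_succ_self _), filter_false_of_mem fun a _ => by
      have := h p a hp (hm p hp h2); omega] at this
    simp at this)

theorem NC.prime {s k : ℕ} (h : NC s k) (h1 : 1 ≤ k) (h2 : k ≤ s) : (s + 1).Prime := by_contra fun e => by
  obtain ⟨k, rfl⟩ := Nat.exists_eq_add_of_le' h1
  have := Nat.choose_succ_right_eq (s + (k + 1)) k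
  rw [show s + (k + 1) - k = s + 1 by omega] at this
  have := Nat.le_of_dvd h1 ((h.cop fun p hp d => Nat.le_of_lt_succ ((Nat.le_of_dvd (by omega) d).lt_of_ne
    fun k : p = s + 1 => e (k ▸ hp))).dvd_of_dvd_mul_left (this ▸ dvd_mul_left _ _))
  omega

theorem NC.eq {s k : ℕ} (h : NC s k) (h1 : 2 ≤ k) (h2 : k < s) : s = 4 ∧ k = 3 := by
  have h3 := (h.prime (by omega) h2.le).odd_of_ne_two (by omega)
  obtain ⟨k, rfl⟩ := Nat.exists_eq_add_of_le' h1
  obtain ⟨s, rfl⟩ := Nat.exists_eq_add_of_le' (show 2 ≤ s by omega)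
  have a1 := Nat.choose_succ_right_eq (s + 2 + (k + 2)) (k + 1)
  have a2 := Nat.choose_succ_right_eq (s + 2 + (k + 2)) k
  have a3 := Nat.choose_succ_right_eq (s + 2 + (k + 2)) (s + 1)
  have a4 := Nat.choose_succ_right_eq (s + 2 + (k + 2)) s
  rw [show s + 2 + (k + 2) - (k + 1) = s + 3 by omega] at a1
  rw [show s + 2 + (k + 2) - k = s + 4 by omega] at a2
  rw [show s + 2 + (k + 2) - (s + 1) = k + 3 by omega, Nat.choose_symm_add] at a3
  rw [show s + 2 + (k + 2) - s = k + 4 by omega] at a4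
  obtain ⟨c, hc⟩ : s + 4 ∣ (k + 2) * (k + 1) := (h.cop fun p hp d => by
    have := Nat.le_of_dvd (by omega) d
    have : p ≠ s + 4 := by rintro rfl; have := hp.eq_two_or_odd; rw [Nat.odd_iff] at h3; omega
    have : p ≠ s + 3 := by rintro rfl; have := Nat.le_of_dvd one_pos ((Nat.dvd_add_right dvd_rfl).1 d); omega
    omega).dvd_of_dvd_mul_left ⟨(s + 2 + (k + 2)).choose k * (s + 3), by
      rw [← mul_assoc, a1, mul_right_comm, a2]; ring⟩
  obtain ⟨m, hm⟩ : k + 3 ∣ s + 2 := (h.cop fun p hp d => (Nat.le_of_dvd (by omega) d).trans h2).dvd_of_dvd_mul_left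
    (a3 ▸ dvd_mul_left _ _)
  rcases m with _ | _ | m
  · omega
  · obtain rfl : s = k + 1 := by omega
    have : k + 5 ∣ 12 := (Nat.dvd_add_right (dvd_mul_left _ k)).1 ⟨c + 2, by linarith⟩
    have := Nat.le_of_dvd (by omega) this
    have := h 2 4 Nat.prime_two (by omega)
    have : k ≤ 7 := by omega
    interval_cases k <;> omega
  have h4 : (k + 3) * (k + 4) ∣ (s + 2) * (s + 1) := (h.cop (m := (k + 3) * (k + 4)) fun p hp d => (hp.dvd_mul.1 d).elim
    (fun d => (Nat.le_of_dvd (by omega) d).trans h2) fun d => (Nat.le_of_dvd (by omega) d).trans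
      (by nlinarith)).dvd_of_dvd_mul_left ⟨(s + 2 + (k + 2)).choose s, by
      rw [← mul_assoc, a3, mul_right_comm, a4]; ring⟩
  obtain rfl : c = 1 := by
    have h5 : 2 * c < k + 3 := Nat.lt_of_mul_lt_mul_left (a := k + 3) (by
      rw [show s + 4 = (k + 3) * (m + 2) + 2 by linarith] at hc; nlinarith [Nat.zero_le ((k + 3) * m * c)])
    rcases c with _ | c
    · simp at hc
    have h6 : k + 3 ∣ 2 * c := (Nat.dvd_add_right (dvd_mul_right _ ((m + 2) * (c + 1)))).1 ⟨k, by nlinarith⟩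
    have := Nat.eq_zero_of_dvd_of_lt h6 (by omega)
    omega
  obtain rfl : k = m + 2 := Nat.eq_of_mul_eq_mul_left (show 0 < k + 3 by omega) (by nlinarith)
  rw [hm, mul_assoc, Nat.mul_dvd_mul_iff_left (by omega), show s + 1 = m * m + 7 * m + 9 by nlinarith] at h4
  have : m + 6 ∣ 12 := (Nat.dvd_add_right h4).1 ⟨m * m + 3 * m + 5, by ring⟩
  have := Nat.le_of_dvd (by omega) this
  have := h 7 1 Nat.prime_seven (by nlinarith)
  have : m ≤ 6 := by omega
  interval_cases m <;> omega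

variable {Ω : Type*} [DecidableEq Ω] [Fintype Ω] {H : Subgroup (Perm Ω)} {X Y : Finset Ω} {B : Set (Finset Ω)}
  {g : Perm Ω} {p : ℕ} {π : Set ℕ}

/-- the exceptional sizes -/
def Ex (X : Finset Ω) : Prop := #X + 1 = Fintype.card Ω ∧ (Fintype.card Ω).Prime ∨
  #X = 4 ∧ (Fintype.card Ω = 7 ∨ Fintype.card Ω = 8)

theorem Fam.endgame (h : Fam H B) (hc : ∀ X ∈ B, ∀ p a : ℕ, p.Prime → p ≤ #X → Cov H (p ^ a))
    (cov : ∀ x, ∃ X ∈ B, x ∈ X) (small : ∀ X ∈ B, ∀ Y ∈ B, #X ≤ 2 → #Y ≤ 2 → X = Y) (big : ∃ X ∈ B, 3 ≤ #X) :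
    ∃ X ∈ B, 3 ≤ #X ∧ (X = univ ∨ Xᶜ ∈ B ∧ Ex X) := by
  have K2 : ∀ q, Cov H q → ∀ X ∈ B, ∀ Y ∈ B, X ≠ Y → ¬ (#X ∣ q ∧ #X < q ∧ ∃ Y ∈ B, Y ≠ X ∧ #Y = #X) →
      ¬ (#Y ∣ q ∧ #Y < q ∧ ∃ X ∈ B, X ≠ Y ∧ #X = #Y) → #X % q + #Y % q < q := fun q hq X hX Y hY e h1 h2 => by
    simpa only [sum_pair e] using h.sum_lt hq {X, Y} (by
      simp only [forall_mem_insert, mem_singleton, forall_eq]; exact ⟨⟨hX, h1⟩, hY, h2⟩)
  have rep : ∀ X ∈ B, ∀ Y ∈ B, Y ≠ X → #Y = #X → #X = 4 := fun X hX Y hY e h1 => by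
    have : 2 < #X := by by_contra! k; exact e (small Y hY X hX (by omega) k)
    obtain ⟨j, hj⟩ := Nat.exists_eq_add_of_le' (show 1 ≤ #X by omega)
    refine (NC.eq (k := j) (fun p a hp h2 => ?_) (by omega) (by omega)).1
    have h3 := Nat.mod_lt j (pow_pos hp.pos a)
    by_cases h4 : #X ∣ p ^ a ∧ #X < p ^ a
    · obtain ⟨⟨m, hm⟩, h4⟩ := h4
      have := Nat.mod_le (#X) (p ^ a)
      have := Nat.mod_le j (p ^ a)
      rcases m with _ | _ | m <;> nlinarith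
    have := K2 _ (hc X hX p a hp h2) X hX Y hY e.symm (by tauto) (by rw [h1]; tauto)
    rw [h1, hj, ← Nat.mod_add_mod] at this
    rw [hj, ← Nat.mod_add_mod]
    rcases (Nat.succ_le_of_lt h3).eq_or_lt with h5 | h5
    · rw [show j % p ^ a + 1 = p ^ a from h5, Nat.mod_self]; omega
    · rw [Nat.mod_eq_of_lt h5] at this ⊢; omega
  have cpl : ∀ X ∈ B, ∀ Y ∈ B, X ≠ Y → (∀ Z ∈ B, Z ≠ X → Z ≠ Y → #Z = 0) →
      Xᶜ ∈ B ∧ #X + #Y = Fintype.card Ω := fun X hX Y hY e h1 => by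
    obtain rfl : Y = Xᶜ := ext fun z => ⟨fun h2 => mem_compl.2 fun h3 => e (h.disj X hX Y hY z h3 h2), fun h2 => by
      obtain ⟨Z, hZ, h3⟩ := cov z
      by_contra h4
      exact (card_pos.2 ⟨z, h3⟩).ne' (h1 Z hZ (fun e => mem_compl.1 h2 (e ▸ h3)) fun e => h4 (e ▸ h3))⟩
    exact ⟨hY, card_add_card_compl X⟩
  by_cases h1 : ∃ X ∈ B, ∃ Y ∈ B, Y ≠ X ∧ #Y = #X
  · obtain ⟨X, hX, Y, hY, e, h1⟩ := h1
    have h2 := rep X hX Y hY e h1
    have nab : ∀ q, ¬ 4 ∣ q → ∀ Z ∈ B, ¬ (#Z ∣ q ∧ #Z < q ∧ ∃ Y ∈ B, Y ≠ Z ∧ #Y = #Z) :=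
      fun q hq Z hZ ⟨h3, _, Y, h4, h5, h6⟩ => hq (rep Z hZ Y h4 h5 h6 ▸ h3)
    obtain ⟨h3, h4⟩ := cpl X hX Y hY e.symm fun Z hZ e1 e2 => by_contra fun e3 => by
      have := h.sum_lt (hc X hX 3 2 Nat.prime_three (by omega)) {Z, X, Y} (by
        simp only [forall_mem_insert, mem_singleton, forall_eq]
        exact ⟨⟨hZ, nab _ (by decide) Z hZ⟩, ⟨hX, nab _ (by decide) X hX⟩, hY, nab _ (by decide) Y hY⟩)
      rw [sum_insert (by simp [e1, e2]), sum_pair e.symm, h1, h2] at this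
      have := K2 _ (hc Z hZ 5 1 Nat.prime_five (by omega)) X hX Y hY e.symm (nab _ (by decide) X hX)
        (nab _ (by decide) Y hY)
      omega
    exact ⟨X, hX, by omega, .inr ⟨h3, .inr ⟨h2, by omega⟩⟩⟩
  have nc : ∀ X ∈ B, ∀ Y ∈ B, X ≠ Y → NC #X #Y := fun X hX Y hY e p a hp h2 =>
    K2 _ (hc X hX p a hp h2) X hX Y hY e (fun k => h1 ⟨X, hX, k.2.2⟩) fun k => h1 ⟨Y, hY, k.2.2⟩
  push Not at h1
  obtain ⟨X₀, h2, h3⟩ := big
  obtain ⟨X, hX, h4⟩ := B.toFinite.exists_maximalFor card B ⟨X₀, h2⟩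
  have h5 : ∀ Y ∈ B, Y ≠ X → #Y < #X := fun Y hY e => by
    have := h1 X hX Y hY e; have := @h4 Y hY; omega
  refine ⟨X, hX, by have := @h4 X₀ h2; omega, or_iff_not_imp_left.2 fun e => ?_⟩
  obtain ⟨y, hy⟩ := not_forall.1 (mt eq_univ_iff_forall.2 e)
  obtain ⟨Y, hY, h6⟩ := cov y
  have h7 := card_pos.2 ⟨y, h6⟩
  have e' : Y ≠ X := fun e => hy (e ▸ h6)
  have k : ∀ Y ∈ B, ∀ Z ∈ B, Y ≠ X → #Z < #Y → #Z = 0 := fun Y hY Z hZ e1 e2 => by_contra fun e3 => by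
    have := (nc Y hY Z hZ fun e => by simp [e] at e2).prime (by omega) e2.le
    rw [((nc X hX Y hY e1.symm).eq (by omega) (h5 Y hY e1)).2] at this
    exact absurd this (by decide)
  obtain ⟨h8, h9⟩ := cpl X hX Y hY e'.symm fun Z hZ e1 e2 => by
    have := h1 Y hY Z hZ e2; have := k Y hY Z hZ e'; have := k Z hZ Y hY e1; omega
  refine ⟨h8, ?_⟩
  rcases (Nat.succ_le_of_lt h7).eq_or_lt with h10 | h10
  · exact .inl ⟨by omega, by rw [← h9, ← h10]; exact (nc X hX Y hY e'.symm).prime h7 (h5 Y hY e').le⟩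
  · have := (nc X hX Y hY e'.symm).eq h10 (h5 Y hY e')
    exact .inr ⟨this.1, by omega⟩

theorem exists_cj_le {G : Type*} [Group G] [Finite G] [Fact p.Prime] {H M Q : Subgroup G} (h : H ≤ M)
    (hp : ¬ p ∣ H.relIndex M) (hQ : IsPGroup p Q) (h1 : Q ≤ M) : ∃ g, cj g Q ≤ H := by
  obtain ⟨S, hS⟩ := exists_isSylowIn p H
  obtain ⟨g, -, hg⟩ := (hS.trans_of_not_dvd h hp).exists_cj_le hQ h1
  exact ⟨g, hg.trans hS.le⟩

theorem cov_pow {M : Subgroup (Perm Ω)} (hp : p.Prime) (h : H ≤ M) (h1 : ¬ p ∣ H.relIndex M)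
    (h2 : ∀ Q : Subgroup (Perm Ω), IsPGroup p Q → Q ≤ M) (a : ℕ) : Cov H (p ^ a) := by
  have := Fact.mk hp
  have := NeZero.mk (pow_pos hp.pos a).ne'
  simpa using cov_of (H := H) (A := Multiplicative (ZMod (p ^ a))) (Y := Multiplicative (ZMod (p ^ a)))
    (IsPGroup.of_card (n := a) (by simp)) fun Q hQ _ => exists_cj_le h h1 hQ (h2 Q hQ)

theorem smul_finset_compl : g • Xᶜ = (g • X)ᶜ := by
  rw [compl_eq_univ_sdiff, smul_finset_sdiff, smul_finset_univ, compl_eq_univ_sdiff]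

/-- the stabiliser of the partition `{X, Xᶜ}` -/
def bis (X : Finset Ω) : Subgroup (Perm Ω) where
  carrier := {g | g • X = X ∨ g • X = Xᶜ}
  one_mem' := .inl (one_smul _ _)
  mul_mem' := by rintro a b (ha | ha) (hb | hb) <;> simp [mul_smul, smul_finset_compl, *]
  inv_mem' := by
    rintro a (ha | ha)
    exacts [.inl (inv_smul_eq_iff.2 ha.symm), .inr (inv_smul_eq_iff.2 (by rw [smul_finset_compl, ha, compl_compl]))]

theorem hall_alt_aux (hH : IsPiHallOf π H (alternatingGroup Ω)) (hn : 5 ≤ Fintype.card Ω) {r s : ℕ}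
    (hr : r.Prime) (hs : s.Prime) (rs : r < s) (r1 : r ∈ π) (s1 : s ∈ π) (s2 : s ≤ Fintype.card Ω) :
    H = alternatingGroup Ω ∨ ∃ X, Ex X ∧ H ≤ bis X ∧ ∀ p, p.Prime → p ≤ #X → p ∈ π := by
  classical
  have c : ∀ p, p.Prime → p ∈ π → p ≠ 2 → Cov H p := fun p hp h1 h2 => by
    have := Fact.mk hp
    simpa using cov_pow hp hH.1 (hH.2.2 p hp h1) (fun Q => le_alt_of_isPGroup h2) 1
  have s3 : s ≠ 2 := by have := hr.two_le; omega
  have h2 : 2 ∈ π := by_contra fun e => have r2 : r ≠ 2 := fun k => e (k ▸ r1)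
    (c r hr r1 r2).false hs hr.one_lt rs s2 (c s hs s1 s3) (fam_odd (mt (hH.2.1 2 Nat.prime_two) e) hr r2)
  have h3 : 3 ∈ π := by_contra fun e => (show Cov H 4 from cov_of (A := Multiplicative (ZMod 2 × ZMod 2))
    (Y := Multiplicative (ZMod 2 × ZMod 2)) (IsPGroup.of_card (p := 2) (n := 2) (by simp)) fun Q hQ k =>
      exists_cj_le hH.1 (hH.2.2 2 Nat.prime_two h2) hQ (k (by decide))).false hs (by decide)
      (hs.five_le_of_ne_two_of_ne_three s3 fun k => e (k ▸ s1)) s2 (c s hs s1 s3)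
      (fam_four hH.1 (mt (hH.2.1 3 Nat.prime_three) e))
  obtain ⟨U, d, h4, h5⟩ := c 3 Nat.prime_three h3 (by omega)
  let B := {s : Finset Ω | Maximal (fun s => 3 ≤ #s ∧ altOn s ≤ H) s}
  have h6 : ∀ x ∈ U, ∃ X ∈ B, x ∈ X := fun x hx => by
    obtain ⟨a1, -, a2, -, a3⟩ := h5 x hx
    have a4 := card_altOn (s := d x) (by rw [a2]; decide)
    rw [a2, show Nat.factorial 3 = 6 from rfl] at a4
    obtain ⟨X, a5, a6⟩ := Finite.exists_le_maximal (p := fun s : Finset Ω => 3 ≤ #s ∧ altOn s ≤ H) ⟨a2.ge,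
      (eq_of_le_of_card_ge (H := H ⊓ symOn (d x)) (le_inf inf_le_right (inf_le_left.trans hH.1))
        (Nat.le_of_dvd Nat.card_pos ((show Nat.card (altOn (d x)) = #(d x) by omega) ▸ Tr.dvd (fun x hx y hy => (a3 x hx y hy).imp
          fun _ h => ⟨mem_inf.2 ⟨h.1, h.2.1⟩, h.2⟩) a1))).ge.trans inf_le_left⟩
    exact ⟨X, a6, a5 a1⟩
  have h7 : ∀ X ∈ B, ∀ Y ∈ B, ∀ a ∈ X, a ∈ Y → X = Y := fun X hX Y hY a ha ha' =>
    have k : 3 ≤ #(X ∪ Y) ∧ altOn (X ∪ Y) ≤ H := ⟨hX.1.1.trans (card_le_card subset_union_left),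
      (altOn_union_le hX.1.1 hY.1.1 (not_disjoint_iff.2 ⟨a, ha, ha'⟩)).trans (sup_le hX.1.2 hY.1.2)⟩
    (subset_union_left.trans (hY.2 k subset_union_right)).antisymm
      (subset_union_right.trans (hX.2 k subset_union_left))
  have m : ∀ g, (∀ X ∈ B, g • X ∈ B) → g ∈ stabilizer (Perm Ω) B := fun g h =>
    (mem_stabilizer_set_iff_smul_set_subset B.toFinite).2 (by rintro _ ⟨X, hX, rfl⟩; exact h X hX)
  have m' : ∀ g ∈ stabilizer (Perm Ω) B, ∀ X ∈ B, g • X ∈ B := fun g h X hX =>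
    mem_stabilizer_iff.1 h ▸ Set.smul_mem_smul_set hX
  have h8 : H ≤ stabilizer (Perm Ω) B := fun g hg => m g fun X hX => by
    have k : ∀ g ∈ H, ∀ X : Finset Ω, 3 ≤ #X ∧ altOn X ≤ H → 3 ≤ #(g • X) ∧ altOn (g • X) ≤ H :=
      fun g hg X h => ⟨(card_smul_finset g X).symm ▸ h.1, fun x hx => by
        have := conj_mem_symOn_smul (g := g⁻¹) hx.1
        rw [inv_smul_smul] at this
        simpa [mul_assoc] using mul_mem (mul_mem hg (h.2 ⟨this, (alternatingGroup.normal).conj_mem _ hx.2 _⟩)) (inv_mem hg)⟩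
    exact ⟨k g hg X hX.1, fun Y hY e => smul_inv_smul g Y ▸ smul_finset_subset_smul_finset
      (hX.2 (k _ (inv_mem hg) Y hY) (subset_smul_finset_iff.2 (by rwa [inv_inv])))⟩
  obtain ⟨x, hx⟩ := card_pos.1 (show 0 < #U by have := card_add_card_compl U; omega)
  obtain ⟨X₀, b1, -⟩ := h6 x hx
  have h9 : stabilizer (Perm Ω) B ⊔ alternatingGroup Ω = ⊤ := by
    obtain ⟨a, ha, b, hb, e⟩ := one_lt_card.1 (b1.1.1.trans_lt' (by omega))
    have : Nontrivial Ω := ⟨a, b, e⟩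
    refine (CF.Invol.isCoatom_of_index_prime (by rw [alternatingGroup.index_eq_two]; exact Nat.prime_two)).2 _
      (right_lt_sup.2 fun k => ?_)
    simpa [sign_swap e] using mem_alternatingGroup.1 (k (m (swap a b) fun X hX => (smul_eq_iff_setStab.2
      (symOn_le_setStab_of (or_iff_not_imp_right.2 fun k => (not_disjoint_iff.1 k).elim fun a h =>
        (h7 _ b1 X hX a h.1 h.2).le) (swap_mem_symOn ha hb))).symm ▸ hX))
  let S := univ.filter fun x => ∀ X ∈ B, x ∉ X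
  have b2 : #S ≤ 2 := Nat.le_of_lt_succ ((card_le_card (s := S) fun x hx => mem_compl.2 fun e =>
    (h6 x e).elim fun X h => (mem_filter.1 hx).2 X h.1 h.2).trans_lt h4)
  have b3 : ∀ X ∈ insert S B, ∀ p, p.Prime → p ≤ #X → p ∈ π := by
    rintro X hX p hp e
    by_cases p2 : p = 2
    · rwa [p2]
    have := hp.two_le
    exact hH.2.1 p hp ((dvd_card_altOn (((Nat.coprime_primes Nat.prime_two hp).2 (Ne.symm p2)).mul_dvd_of_dvd_of_dvd
      (Nat.dvd_factorial two_pos (by omega)) (Nat.dvd_factorial hp.pos e)) (by omega)).trans (card_dvd_of_le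
        (hX.resolve_left fun k => by rw [k] at e; omega).1.2))
  have F : Fam (stabilizer (Perm Ω) B) (insert S B) := ⟨by
    rintro X (rfl | hX) Y (rfl | hY) a ha ha'
    exacts [rfl, ((mem_filter.1 ha).2 Y hY ha').elim, ((mem_filter.1 ha').2 X hX ha).elim, h7 X hX Y hY a ha ha'], by
    rintro g hg X (rfl | hX)
    · refine .inl (eq_of_subset_of_card_le (fun x hx => ?_) (card_smul_finset _ _).ge)
      exact mem_filter.2 ⟨mem_univ _, fun X hX e => (mem_filter.1 (inv_smul_mem_iff.2 hx)).2 _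
        (m' _ (inv_mem hg) X hX) (smul_mem_smul_finset e)⟩
    · exact .inr (m' g hg X hX)⟩
  obtain ⟨X, hX, a1, a2⟩ := F.endgame (fun X hX p a hp e => cov_pow hp le_top (fun k => hH.2.2 p hp (b3 X hX p hp e) (by
      rw [← h9, CF.Solv.relIndex_sup_eq_relIndex_of_le_normalizer le_normalizer_of_normal] at k
      exact k.trans (relIndex_dvd_of_le_left _ h8))) (fun _ _ => le_top) a)
    (fun x => by_contra fun e => e ⟨S, .inl rfl, mem_filter.2 ⟨mem_univ _, fun X hX k => e ⟨X, .inr hX, k⟩⟩⟩) (by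
      rintro X (rfl | hX) Y (rfl | hY) a1 a2
      exacts [rfl, by have := hY.1.1; omega, by have := hX.1.1; omega, by have := hX.1.1; omega]) ⟨X₀, .inr b1, b1.1.1⟩
  rcases a2 with rfl | ⟨a2, a3⟩
  · exact .inl (hH.1.antisymm fun g hg => (hX.resolve_left fun k => by rw [k] at a1; omega).1.2 ⟨by simp [symOn], hg⟩)
  refine .inr ⟨X, a3, fun g hg => ?_, b3 X hX⟩
  obtain ⟨y, hy⟩ := card_pos.1 (show 0 < #X by omega)
  have := F.disj _ (F.inv g (h8 hg) X hX)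
  exact (em (g y ∈ X)).imp (this X hX _ (mem_smul_perm.2 hy)) fun e => this _ a2 _ (mem_smul_perm.2 hy) (mem_compl.2 e)

theorem fix_of_prime (hg : g ∈ setStab X) (hp : p.Prime) (h : g ^ p = 1) (h1 : #X < p) : g ∈ symOn Xᶜ := by
  have := Fact.mk hp
  have h2 : restrictHom X ⟨g, hg⟩ = 1 := by_contra fun e => by
    have := orderOf_dvd_natCard (restrictHom X ⟨g, hg⟩)
    rw [orderOf_eq_prime (by rw [← map_pow, show (⟨g, hg⟩ : setStab X) ^ p = 1 from Subtype.ext h, map_one]) e,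
      Nat.card_perm, hp.dvd_factorial, Nat.card_eq_finsetCard] at this
    omega
  exact fun x hx => congrArg (fun k : Perm X => (k ⟨x, by simpa using hx⟩).1) h2

theorem le_of_dvd_card_bis (hp : p.Prime) (h : p ∣ Nat.card (bis X)) (h1 : 2 ≤ #X) (h2 : #Xᶜ ≤ #X) : p ≤ #X := by
  have := Fact.mk hp
  by_contra! h3
  obtain ⟨⟨g, hg⟩, h4⟩ := exists_prime_orderOf_dvd_card' p h
  rw [Subgroup.orderOf_mk] at h4
  obtain ⟨k, hk⟩ := hp.odd_of_ne_two (by omega)
  have h5 : g ^ p = 1 := h4 ▸ pow_orderOf_eq_one g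
  have h6 : g ∈ setStab X := by
    rw [← mul_one g, ← h5, ← pow_succ', show p + 1 = 2 * (k + 1) by omega, pow_mul]
    refine pow_mem (smul_eq_iff_setStab.1 ?_) _
    rcases hg with e | e <;> simp [sq, mul_smul, e, smul_finset_compl]
  refine hp.ne_one (h4 ▸ orderOf_eq_one_iff.2 (Equiv.ext fun x => (em (x ∈ X)).elim (fun e => ?_) fun e => ?_))
  · exact fix_of_prime h6 hp h5 h3 x (by simpa)
  · exact fix_of_prime (setStab_compl.ge h6) hp h5 (by omega) x (by simpa)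

omit [Fintype Ω] in
theorem exists_smul_finset_eq (h : #X = #Y) : ∃ g : Perm Ω, g • X = Y :=
  (exists_map_finset_eq X Y h).imp fun _ h => by rw [← h, map_eq_image]; rfl

theorem index_setStab : (setStab X).index = (Fintype.card Ω).choose #X := by
  rw [show setStab X = stabilizer (Perm Ω) X from Subgroup.ext fun _ => smul_eq_iff_setStab.symm, index_stabilizer,
    ← card_univ, ← card_powersetCard, ← Set.ncard_coe_finset]
  congr 1; ext Y
  simpa using ⟨by rintro ⟨g, rfl⟩; exact card_smul_finset _ _, fun h => exists_smul_finset_eq h.symm⟩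

theorem setStab_le_bis : setStab X ≤ bis X := fun _ h => .inl (smul_eq_iff_setStab.2 h)

theorem Ex.not_dvd (h : Ex X) (hp : p.Prime) (h1 : p ≤ #X) : ¬ p ∣ (bis X).index := fun d => by
  have h2 := relIndex_mul_index (setStab_le_bis (X := X))
  rw [index_setStab] at h2
  rcases h with ⟨h, h3⟩ | ⟨h, h3 | h3⟩
  · rw [← h, Nat.choose_succ_self_right, h] at h2
    have := (Nat.prime_dvd_prime_iff_eq hp h3).1 (h2 ▸ d.mul_left _); omega
  · have := d.mul_left ((setStab X).relIndex (bis X))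
    rw [h2, h, h3] at this; rw [h] at h1
    interval_cases p <;> contradiction
  obtain ⟨a, ha⟩ := exists_smul_finset_eq (X := X) (Y := Xᶜ) (by rw [card_compl]; omega)
  obtain ⟨x, hx⟩ := card_pos.1 (show 0 < #X by omega)
  have n : X ≠ Xᶜ := fun e => mem_compl.1 (e ▸ hx) hx
  rw [relIndex_eq_two_iff.2 ⟨a, Or.inr ha, by
    rintro b (hb | hb) <;> simp [← smul_eq_iff_setStab, mul_smul, ha, hb, smul_finset_compl, n.symm]⟩, h, h3,
    show Nat.choose 8 4 = 2 * 35 from rfl, Nat.mul_right_inj (by omega)] at h2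
  rw [h2] at d; rw [h] at h1
  interval_cases p <;> contradiction

theorem Ex.le (h : Ex X) (hn : 5 ≤ Fintype.card Ω) : 4 ≤ #X ∧ #Xᶜ ≤ #X := by
  rw [card_compl]; rcases h with h | h <;> omega

theorem dvd_card_alt (hn : 4 ≤ Fintype.card Ω) (hp : p.Prime) :
    p ∣ Nat.card (alternatingGroup Ω) ↔ p ≤ Fintype.card Ω := by
  have : Nontrivial Ω := Fintype.one_lt_card_iff_nontrivial.1 (by omega)
  have h := two_mul_nat_card_alternatingGroup (α := Ω)
  rw [Nat.card_perm, Nat.card_eq_fintype_card (α := Ω)] at h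
  refine ⟨fun d => hp.dvd_factorial.1 (h ▸ d.mul_left 2), fun e => Nat.dvd_of_mul_dvd_mul_left two_pos (h ▸ ?_)⟩
  by_cases p2 : p = 2
  · rw [p2]; exact Nat.dvd_factorial (by decide) hn
  · exact ((Nat.coprime_primes Nat.prime_two hp).2 (Ne.symm p2)).mul_dvd_of_dvd_of_dvd
      (Nat.dvd_factorial two_pos (by omega)) (Nat.dvd_factorial hp.pos e)

theorem hall_alt (hH : IsPiHallOf π H (alternatingGroup Ω)) (hn : 5 ≤ Fintype.card Ω)
    (h : ∃ r s : ℕ, r.Prime ∧ s.Prime ∧ r ≠ s ∧ r ∈ π ∧ s ∈ π ∧ r ≤ Fintype.card Ω ∧ s ≤ Fintype.card Ω) :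
    H = alternatingGroup Ω ∨ ∃ X, Ex X ∧ H = bis X ⊓ alternatingGroup Ω ∧
      ∀ p, p.Prime → p ≤ Fintype.card Ω → (p ∈ π ↔ p ≤ #X) := by
  obtain ⟨r, s, h1, h2, h3, h4, h5, h6, h7⟩ := h
  refine ((Nat.lt_or_gt_of_ne h3).elim (fun e => hall_alt_aux hH hn h1 h2 e h4 h5 h7)
    fun e => hall_alt_aux hH hn h2 h1 e h5 h4 h6).imp_right fun ⟨X, a1, a2, a3⟩ => ?_
  have a4 := fun p hp d => le_of_dvd_card_bis (X := X) (p := p) hp d (by have := a1.le hn; omega) (a1.le hn).2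
  refine ⟨X, a1, CF.Solv.eq_of_isPiHallOf_of_le hH inf_le_right (fun p hp d => a3 p hp (a4 p hp
    (d.trans (card_dvd_of_le inf_le_left)))) (le_inf a2 hH.1), fun p hp e => ⟨fun k => a4 p hp (.trans ?_
      (card_dvd_of_le a2)), a3 p hp⟩⟩
  have := (dvd_card_alt (by omega) hp).2 e
  rw [← (H.subgroupOf _).card_mul_index, hp.dvd_mul, Nat.card_congr (subgroupOfEquivOfLe hH.1).toEquiv] at this
  exact this.resolve_right (hH.2.2 p hp k)

theorem cj_bis : cj g (bis X) = bis (g • X) := Subgroup.ext fun x => by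
  simp only [mem_cj, bis, Subgroup.mem_mk, Submonoid.mem_mk, Subsemigroup.mem_mk, Set.mem_ofPred_eq, mul_smul,
    inv_smul_eq_iff, smul_finset_compl]

section Pi
variable {G : Type*} [Group G] [Finite G]

theorem ePi_of_dPi (h : IsDPiGroup π G) : IsCPiGroup π G := by
  refine ⟨?_, fun H K hH hK => h H K ⟨hH.1, fun _ h1 h2 => (CF.Solv.eq_of_isPiHall_of_le hH h1 h2).ge⟩
    ⟨hK.1, fun _ h1 h2 => (CF.Solv.eq_of_isPiHall_of_le hK h1 h2).ge⟩⟩
  obtain ⟨H, -, hH⟩ := Finite.exists_le_maximal (p := IsPiSubgroup (G := G) π) (a := ⊥)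
    (fun p hp hd => absurd (by simpa using hd) hp.ne_one)
  refine ⟨H, hH.1, fun p hp hπ hd => ?_⟩
  have := Fact.mk hp
  obtain ⟨P⟩ : Nonempty (Sylow p G) := inferInstance
  obtain ⟨K, hK1, hK⟩ := Finite.exists_le_maximal (p := IsPiSubgroup (G := G) π) (a := P) (fun r hr hd => by
    obtain ⟨k, hk⟩ := IsPGroup.iff_card.1 P.2
    rwa [(Nat.prime_dvd_prime_iff_eq hr hp).1 (hr.dvd_of_dvd_pow (hk ▸ hd))])
  obtain ⟨g, rfl⟩ := h H K hH hK
  refine P.not_dvd_index ((?_ : p ∣ _).trans (index_dvd_of_le hK1))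
  rwa [index_map_of_bijective (MulAut.conj g).bijective]

theorem dPi_of (h : (∀ r s : ℕ, r.Prime → s.Prime → r ∈ π → s ∈ π → r ∣ Nat.card G → s ∣ Nat.card G → r = s) ∨
    ∀ r : ℕ, r.Prime → r ∣ Nat.card G → r ∈ π) : IsDPiGroup π G := by
  intro H K hH hK
  rcases h with h | h
  · by_cases e : ∃ p, p.Prime ∧ p ∈ π ∧ p ∣ Nat.card G
    · obtain ⟨p, hp, hπ, hd⟩ := e
      have := Fact.mk hp
      have e : ∀ L : Subgroup G, IsPiSubgroup π L ↔ IsPGroup p L := fun L => by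
        rw [IsPGroup.iff_card]
        refine ⟨fun hL => ⟨_, Nat.eq_prime_pow_of_unique_prime_dvd Nat.card_pos.ne' fun {d} h1 h2 =>
          h _ _ h1 hp (hL d h1 h2) hπ (h2.trans L.card_subgroup_dvd_card) hd⟩, fun ⟨k, hk⟩ r hr hd => ?_⟩
        rwa [(Nat.prime_dvd_prime_iff_eq hr hp).1 (hr.dvd_of_dvd_pow (hk ▸ hd))]
      let P : Sylow p G := ⟨H, (e H).1 hH.1, fun {Q} h1 h2 => (hH.eq_of_le ((e Q).2 h1) h2).symm⟩
      let Q : Sylow p G := ⟨K, (e K).1 hK.1, fun {Q} h1 h2 => (hK.eq_of_le ((e Q).2 h1) h2).symm⟩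
      obtain ⟨g, hg⟩ := exists_smul_eq G P Q
      exact ⟨g, (congrArg (fun S : Sylow p G => (S : Subgroup G)) hg).symm⟩
    · have : ∀ L : Subgroup G, IsPiSubgroup π L → L = ⊥ := fun L hL => by
        rw [← Subgroup.card_eq_one, Nat.eq_one_iff_not_exists_prime_dvd]
        exact fun p hp hd => e ⟨p, hp, hL p hp hd, hd.trans L.card_subgroup_dvd_card⟩
      exact ⟨1, by rw [this H hH.1, this K hK.1, Subgroup.map_bot]⟩
  · have t : IsPiSubgroup π (⊤ : Subgroup G) := fun p hp d => h p hp (by simpa using d)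
    exact ⟨1, by rw [hH.eq_of_le t le_top, hK.eq_of_le t le_top, map_top_of_surjective _ (MulAut.conj 1).surjective]⟩

theorem cPi_of_isSolvable [Group.IsSolvable G] : IsCPiGroup π G :=
  ⟨CF.Solv.exists_isPiHall π, fun _ _ hH hK => (CF.Solv.isPiHall_conj hH hK).imp fun _ h => h.symm⟩

end Pi

theorem two_primes (hn : 5 ≤ Fintype.card Ω) (h : ¬ ∀ r s : ℕ, r.Prime → s.Prime → r ∈ π → s ∈ π →
    r ∣ Nat.card (alternatingGroup Ω) → s ∣ Nat.card (alternatingGroup Ω) → r = s) :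
    ∃ r s : ℕ, r.Prime ∧ s.Prime ∧ r ≠ s ∧ r ∈ π ∧ s ∈ π ∧ r ≤ Fintype.card Ω ∧ s ≤ Fintype.card Ω := by
  push Not at h
  obtain ⟨r, s, h1, h2, h3, h4, h5, h6, h7⟩ := h
  exact ⟨r, s, h1, h2, h7, h3, h4, (dvd_card_alt (by omega) h1).1 h5, (dvd_card_alt (by omega) h2).1 h6⟩

theorem cPi_alt (h : IsEPiGroup π (alternatingGroup Ω)) : IsCPiGroup π (alternatingGroup Ω) := by
  by_cases hn : Fintype.card Ω ≤ 4
  · have := isSolvable_perm (X := Ω) (by simpa)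
    exact cPi_of_isSolvable
  refine by_contra fun e => e ⟨h, fun H K hH hK => ?_⟩
  have h1 := two_primes (by omega) fun k => e (ePi_of_dPi (dPi_of (.inl k)))
  have t : ∀ H K : Subgroup (alternatingGroup Ω), IsPiHall π H → IsPiHall π K →
      H.map (Subgroup.subtype _) = alternatingGroup Ω → H = K := fun H K hH hK e =>
    (CF.Solv.eq_of_isPiHall_of_le hK hH.1 fun x _ => by
      obtain ⟨y, hy, e⟩ := e.ge x.2; exact Subtype.ext e ▸ hy).symm
  rcases hall_alt (CF.Solv.isPiHallOf_map_subtype_iff.2 hH) (by omega) h1 with h2 | ⟨X, a1, a2, a3⟩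
  · exact ⟨1, by rw [← cj_def, cj_one, t H K hH hK h2]⟩
  rcases hall_alt (CF.Solv.isPiHallOf_map_subtype_iff.2 hK) (by omega) h1 with h2 | ⟨Y, b1, b2, b3⟩
  · exact ⟨1, by rw [← cj_def, cj_one, t K H hK hH h2]⟩
  obtain ⟨g, rfl⟩ := exists_smul_finset_eq (X := X) (Y := Y) (by
    have := (a3 5 Nat.prime_five (by omega)).symm.trans (b3 5 Nat.prime_five (by omega))
    rcases a1 with a1 | a1 <;> rcases b1 with b1 | b1 <;> omega)
  obtain ⟨k, h2, h3⟩ : ∃ k ∈ alternatingGroup Ω, k • X = g • X := by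
    obtain ⟨a, ha, b, hb, e⟩ := one_lt_card.1 ((a1.le (by omega)).1.trans_lt' (by omega))
    rcases Int.units_eq_one_or (sign g) with h2 | h2
    · exact ⟨g, h2, rfl⟩
    · exact ⟨g * swap a b, by simp [h2, sign_swap e], by
        rw [mul_smul, smul_eq_iff_setStab.2 (symOn_le_setStab (swap_mem_symOn ha hb))]⟩
  refine ⟨⟨k, h2⟩, map_injective (Subgroup.subtype_injective _) ?_⟩
  rw [b2, ← cj_def, map_cj, a2, cj_inf, cj_eq_of_mem (g := Subgroup.subtype _ ⟨k, h2⟩) h2, cj_bis, ← h3]; rfl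

end CF.Perm
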