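import Cfsg.Agent.Perm.Huppert3
import Cfsg.Agent.S0689

/-! Linear groups regular on non-zero vectors without irreducible cyclic normal subgroup. -/

set_option autoImplicit false

namespace CF.Perm

open Subgroup CF.Fgs1.Fpf

universe u

variable {p : ℕ} [Fact p.Prime] {V : Type u} [AddCommGroup V] [Module (ZMod p) V] [Finite V]
  {H : Subgroup (V ≃ₗ[ZMod p] V)}

theorem typeTwo (hreg : ∀ v w : V, v ≠ 0 → w ≠ 0 → ∃! h : H, (h : V ≃ₗ[ZMod p] V) v = w)
    (hI : ∀ A : Subgroup H, A.Normal → IsCyclic A → ∃ W : Submodule (ZMod p) V, W ≠ ⊥ ∧ W ≠ ⊤ ∧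
      ∀ a ∈ A, ∀ v ∈ W, ((a : H) : V ≃ₗ[ZMod p] V) v ∈ W) (A : Subgroup H) (hAn : A.Normal)
    (hAc : IsMulCommutative A) : Nontrivial V ∧ Finite H ∧ Tr H V ∧
      (∀ v : V, v ≠ 0 → ∀ g : H, g • v = v → g = 1) ∧ IsCyclic A ∧ ∃ (K : Type u) (_ : Field K)
      (_ : Finite K) (_ : Module K V) (σ : H →* RingAut K), FS V K A σ ∧ Module.finrank K V ≠ 1 := by
  obtain ⟨W, h1, -⟩ := hI ⊥ inferInstance inferInstance
  have := (Submodule.nontrivial_iff _).1 (nontrivial_of_ne _ _ h1)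
  have ht : Tr H V := fun v w hv hw => (hreg v w hv hw).exists
  obtain ⟨K, _, _, _, σ, h⟩ := ht.exists_FS A hAc
  refine ⟨this, Finite.of_injective (fun h : H => ((h : V ≃ₗ[ZMod p] V) : V → V))
    fun a b h => Subtype.ext (DFunLike.coe_injective h), ht,
    fun v hv g hg => (hreg v v hv hv).unique hg rfl, h.isCyclic, K, _, ‹_›, _, σ, h, fun hd => ?_⟩
  obtain ⟨W, h1, h2, h3⟩ := hI A hAn h.isCyclic
  exact (h.irred hd W.toAddSubgroup h3).elim (fun e => h1 (Submodule.toAddSubgroup_injective e))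
    fun e => h2 (by simpa using e)

/-- a non-abelian group with a fixed point free action all of whose proper characteristic
subgroups are central -/
theorem q8_or_sl25 {N : Type*} [Group N] [Finite N] (hN : FPF N) (h1 : ¬ IsMulCommutative N)
    (h2 : ∀ M : Subgroup N, M.Characteristic → M ≠ ⊤ → M ≤ center N) :
    Nonempty (N ≃* QuaternionGroup 2) ∨
      Nonempty (N ≃* Matrix.SpecialLinearGroup (Fin 2) (ZMod 5)) := by
  have h0 : center N ≠ ⊤ := fun e => h1 ⟨⟨fun a b => mem_center_iff.1 (e.ge (mem_top b)) a⟩⟩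
  by_cases h3 : commutator N = ⊤
  · have : Nontrivial N := not_subsingleton_iff_nontrivial.1 fun _ => h0 (Subsingleton.elim _ _)
    exact .inr (hN.equiv_SL25 h3)
  have h4 := h2 _ inferInstance h3
  have : Group.IsNilpotent N := Subgroup.isNilpotent_of_ker_le_center Abelianization.of
    (Abelianization.ker_of N ▸ h4)
  obtain ⟨q, _, P, hP⟩ : ∃ (q : ℕ) (_ : Fact q.Prime) (P : Sylow q N), (P : Subgroup N) = ⊤ := by
    by_contra! h5
    exact h0 (CF.Solv.eq_top_of_forall_sylow_le fun q _ _ => ⟨default,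
      h2 _ (Sylow.characteristic_of_normal _ inferInstance) (h5 q ‹_› _)⟩)
  rcases hN.isCyclic_or_quaternion (hP ▸ P.isPGroup') with h5 | ⟨-, n, hn, ⟨e⟩⟩
  · exact absurd (isCyclic_of_surjective _ topEquiv.surjective).isMulCommutative h1
  replace e := topEquiv.symm.trans e
  have h5 := congrArg e (mem_center_iff.1 (h4 (commutator_mem_commutator (mem_top (e.symm (.a 1)))
    (mem_top (e.symm (.xa 0))))) (e.symm (.xa 0)))
  simp only [commutatorElement_def, map_mul, map_inv, e.apply_symm_apply] at h5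
  have h6 : ((4 : ℕ) : ZMod (2 * 2 ^ n)) = 0 := by
    change QuaternionGroup.xa _ = .xa _ at h5
    rw [QuaternionGroup.xa.injEq] at h5
    have h6 := ZMod.natCast_self (2 * 2 ^ n)
    push_cast at h5 h6 ⊢
    linear_combination h5 - 2 * h6
  have h7 := Nat.le_of_dvd four_pos ((ZMod.natCast_eq_zero_iff _ _).1 h6)
  obtain rfl : n = 1 := le_antisymm ((Nat.pow_le_pow_iff_right one_lt_two).1 (by omega)) hn
  exact .inl ⟨e⟩

theorem le_of_comm_of_le_centralizer {G : Type*} [Group G] {A B : Subgroup G} [A.Normal] [B.Normal]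
    [IsMulCommutative A] [IsMulCommutative B] (h : B ≤ centralizer (A : Set G))
    (hA : ∀ B : Subgroup G, B.Normal → IsMulCommutative B → A ≤ B → B = A) : B ≤ A :=
  le_sup_left.trans (hA (B ⊔ A) inferInstance (le_centralizer_iff_isMulCommutative.1 (sup_le
    (le_centralizer_iff.1 (sup_le (le_centralizer B) (le_centralizer_iff.1 h)))
    (le_centralizer_iff.1 (sup_le h (le_centralizer A))))) le_sup_right).le

theorem qp_map {G G' : Type*} [Group G] [Group G'] (e : G ≃* G') {z i j : G} (h : QP z i j) :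
    QP (e z) (e i) (e j) :=
  ⟨by rw [← map_mul, h.zz, map_one], by simpa using h.z1, by rw [← map_mul, h.ii],
    by rw [← map_mul, h.jj], by rw [← map_inv e i, ← h.ji]; simp⟩

variable (hreg : ∀ v w : V, v ≠ 0 → w ≠ 0 → ∃! h : H, (h : V ≃ₗ[ZMod p] V) v = w)
    (hI : ∀ A : Subgroup H, A.Normal → IsCyclic A → ∃ W : Submodule (ZMod p) V, W ≠ ⊥ ∧ W ≠ ⊤ ∧
      ∀ a ∈ A, ∀ v ∈ W, ((a : H) : V ≃ₗ[ZMod p] V) v ∈ W) (A : Subgroup H) (hAn : A.Normal)
    (hAc : IsMulCommutative A)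
    (hAmax : ∀ B : Subgroup H, B.Normal → IsMulCommutative B → A ≤ B → B = A) (N : Subgroup H)
    (hNn : N.Normal) (hNle : N ≤ centralizer (A : Set H)) (hNna : ¬ IsMulCommutative N)
    (hNmin : ∀ M : Subgroup H, M.Normal → M ≤ N → ¬ IsMulCommutative M → M = N)
include hreg hI hAn hAc hAmax hNn hNle hNna hNmin

theorem typeTwo_min : Nonempty (N ≃* QuaternionGroup 2) ∨
    Nonempty (N ≃* Matrix.SpecialLinearGroup (Fin 2) (ZMod 5)) := by
  obtain ⟨_, _, -, hr, -⟩ := typeTwo hreg hI A hAn hAc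
  refine q8_or_sl25 ((fpf_of_regular hr).subgroup N) hNna fun M _ hM x hx => ?_
  have : IsMulCommutative (M.map N.subtype) := by_contra fun h => hM
    (map_injective N.subtype_injective ((hNmin _ inferInstance (map_subtype_le _) h).trans
      (by rw [← MonoidHom.range_eq_map, range_subtype])))
  exact mem_center_iff.2 fun y => Subtype.ext (hNle y.2 _ (le_of_comm_of_le_centralizer
    ((map_subtype_le M).trans hNle) hAmax ⟨x, hx, rfl⟩)).symm

theorem typeTwo_irred (W : Submodule (ZMod p) V)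
    (hW : ∀ n ∈ N, ∀ v ∈ W, ((n : H) : V ≃ₗ[ZMod p] V) v ∈ W) : W = ⊥ ∨ W = ⊤ := by
  obtain ⟨_, _, ht, hr, -⟩ := typeTwo hreg hI A hAn hAc
  obtain ⟨z, i, j, h⟩ : ∃ z i j : N, QP z i j := by
    rcases typeTwo_min hreg hI A hAn hAc hAmax N hNn hNle hNna hNmin with ⟨⟨e⟩⟩ | ⟨⟨e⟩⟩
    · exact ⟨_, _, _, qp_map (z := .a 2) (i := .a 1) (j := .xa 0) e.symm
        ⟨by decide, by decide, by decide, by decide, by decide⟩⟩
    · exact ⟨_, _, _, qp_map (z := -1) (i := Cfsg.Agent.S0689.si) (j := Cfsg.Agent.S0689.sj) e.symm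
        ⟨by decide, by decide, by decide, by decide, by decide⟩⟩
  let ρ : H →* Module.End (ZMod p) V :=
    LinearEquiv.automorphismGroup.toLinearMapMonoidHom.comp H.subtype
  have hf : IsFpf ρ := fun g hg v hv => by_contra fun h0 => hg (hr v h0 g hv)
  have h1 : (z : H) ≠ 1 := fun e => h.z1 (Subtype.ext e)
  have hz : ρ z = -1 := hf.nz.invol (congrArg Subtype.val h.zz) h1
  refine Cfsg.Agent.S0689.simple ρ ht N i.2 j.2 ?_ ?_ ?_ (fun v hv => hf z h1 v (hz ▸ hv)) W hW
  · rw [← map_mul, ← coe_mul, h.ii, hz]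
  · rw [← map_mul, ← coe_mul, h.jj, hz]
  · rw [← map_mul, ← coe_mul, h.ji', coe_mul, coe_mul, map_mul, map_mul, hz, neg_one_mul]

end CF.Perm
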