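import Cfsg.Agent.Perm.Ito1
import Cfsg.Agent.Perm.ONan4
import Cfsg.Agent.Char.Frobenius

/-! Ito's theorem on 2-transitive symmetric designs. -/

set_option autoImplicit false

open scoped Classical

namespace CF.Perm

open MulAction Subgroup Finset CF.Transfer

variable {G Ω X : Type*} [Group G] [MulAction G Ω] [MulAction G X] [Fintype Ω] [Fintype X]

/-- a symmetric design with a group of automorphisms -/
structure SD (G : Type*) [Group G] [MulAction G Ω] [MulAction G X] (I : Ω → X → Prop) (k l : ℕ) : Prop where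
  inv : ∀ (g : G) p b, I (g • p) (g • b) ↔ I p b
  hk : ∀ b, #{p | I p b} = k
  hr : ∀ p, #{b | I p b} = k
  hl : ∀ p q, p ≠ q → #{b | I p b ∧ I q b} = l
  hl' : ∀ b c, b ≠ c → #{p | I p b ∧ I p c} = l
  eq : k * (k - 1) = (Fintype.card Ω - 1) * l
  fix : ∀ g : G, #{b : X | g • b = b} = #{p : Ω | g • p = p}
  lpos : 0 < l
  faith : ∀ g : G, (∀ p : Ω, g • p = p) → g = 1

namespace SD

variable {I : Ω → X → Prop} {k l : ℕ} (h : SD G I k l) {g : G} {b c : X} {w w' : Ω}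
include h

theorem inv' (hw : I w c) (e : g • c = c) : I (g • w) c := e ▸ (h.inv g w c).2 hw

theorem centre (hb : ∀ p, I p b → g • p = p) (hw : ¬ I w b) (e : g • w = w) (hc : I w c) : g • c = c := by
  by_contra hn
  have h1 := card_le_card (s := insert w ({p | I p c ∧ I p b} : Finset Ω)) (t := {p | I p (g • c) ∧ I p c}) fun p hp => by
    simp only [mem_insert, mem_filter, mem_univ, true_and] at hp ⊢
    rcases hp with rfl | hp
    · exact ⟨e ▸ (h.inv g _ c).2 hc, hc⟩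
    · exact ⟨hb p hp.2 ▸ (h.inv g _ c).2 hp.1, hp.1⟩
  rw [card_insert_of_notMem (by simp [hw]), h.hl' _ _ hn, h.hl' c b fun e => hw (e ▸ hc)] at h1
  omega

theorem le_one (hb : ∀ p, I p b → g • p = p) (hb' : g • b = b) (hw : ¬ I w b) (hw' : ¬ I w' b)
    (e : g • w = w) (e' : g • w' = w') (hne : w ≠ w') : g = 1 := h.faith g fun u => by
  by_contra hu
  let W : Finset Ω := {p | ¬ I p b ∧ g • p = p}
  have h1 := card_le_card (s := insert b (({c | I w c} : Finset X) ∪ ({c | I w' c} : Finset X))) (t := {c | g • c = c}) fun c hc => by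
    simp only [mem_insert, mem_union, mem_filter, mem_univ, true_and] at hc ⊢
    rcases hc with rfl | hc | hc
    exacts [hb', h.centre hb hw e hc, h.centre hb hw' e' hc]
  have h2 := card_union_add_card_inter ({c | I w c} : Finset X) {c | I w' c}
  rw [← filter_and, h.hl _ _ hne, h.hr, h.hr] at h2
  have h3 := card_le_card (s := {p | g • p = p}) (t := ({p | I p b} : Finset Ω) ∪ W) fun p hp => by
    by_cases e : I p b <;> simp_all [W]
  have h4 := card_union_le ({p | I p b} : Finset Ω) W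
  rw [card_insert_of_notMem (by simp [hw, hw']), h.fix] at h1
  obtain ⟨c, hc⟩ := card_pos.1 ((h.hl u (g • u) (Ne.symm hu)).symm ▸ h.lpos)
  have h5 : ∀ x ∈ W, I x c := fun x hx => by
    simp only [W, mem_filter, mem_univ, true_and] at hx
    have := eq_of_subset_of_card_le (s := {c | I x c ∧ I u c}) (t := {c | I u c ∧ I (g • u) c})
      (fun c hc => by
        simp only [mem_filter, mem_univ, true_and] at hc ⊢
        exact ⟨hc.2, h.inv' hc.2 (h.centre hb hx.1 hx.2 hc.1)⟩)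
      (by rw [h.hl _ _ (Ne.symm hu), h.hl x u fun e => hu (e ▸ hx.2)])
    exact (mem_filter.1 (this ▸ hc)).2.1
  have h6 := card_le_card (s := W ∪ ({p | I p c ∧ I p b} : Finset Ω)) (t := {p | I p c}) fun p hp => by
    rcases mem_union.1 hp with hp | hp
    · simpa using h5 p hp
    · simp_all
  rw [card_union_of_disjoint (disjoint_left.2 fun p h1 h2 => by simp_all [W]), h.hk,
    h.hl' c b fun e => hu (hb u (e ▸ (mem_filter.1 hc).2.1))] at h6
  rw [h.hk] at h4
  omega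

theorem card_fix (hb : ∀ p, I p b → g • p = p) (hb' : g • b = b) (hw : ∀ w, ¬ I w b → g • w ≠ w) :
    #(({c | g • c = c} : Finset X).erase b) = k - 1 := by
  rw [card_erase_of_mem (by simpa using hb'), h.fix, ← h.hk b]
  congr 2
  ext p
  simpa using ⟨fun e => by_contra fun e' => hw p e' e, hb p⟩

theorem elation (hb : ∀ p, I p b → g • p = p) (hb' : g • b = b) (hw : ∀ w, ¬ I w b → g • w ≠ w)
    (h1 : ¬ I w b) (h2 : I w c) (h3 : I (g • w) c) : g • c = c := by
  let F := ({c | g • c = c} : Finset X).erase b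
  have h4 : ∀ u ∈ ({u | ¬ I u b} : Finset Ω), F.bipartiteAbove I u ⊆ ({c | I u c ∧ I (g • u) c} : Finset X) :=
    fun u _ c hc => by
      simp only [F, mem_bipartiteAbove, mem_erase, mem_filter, mem_univ, true_and] at hc ⊢
      exact ⟨hc.2, h.inv' hc.2 hc.1.2⟩
  have h5 : ∀ u ∈ ({u | ¬ I u b} : Finset Ω), #{c | I u c ∧ I (g • u) c} = l := fun u hu =>
    h.hl _ _ (hw u (mem_filter.1 hu).2).symm
  have h6 := sum_card_bipartiteAbove_eq_sum_card_bipartiteBelow (s := {u | ¬ I u b}) (t := F) I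
  have h7 : ∀ c ∈ F, l + #(({u | ¬ I u b} : Finset Ω).bipartiteBelow I c) = k := fun c hc => by
    rw [← h.hl' _ _ (ne_of_mem_erase hc), ← h.hk c, ← card_filter_add_card_filter_not (s := {p | I p c})
      (I · b), filter_filter, filter_filter, bipartiteBelow, filter_filter]
    simp only [and_comm]
  have h8 := sum_congr rfl h7
  have h9 := card_filter_add_card_filter_not (s := univ) (I · b)
  rw [sum_add_distrib, ← h6, sum_const, sum_const, h.card_fix hb hb' hw, smul_eq_mul, smul_eq_mul] at h8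
  rw [h.hk, card_univ] at h9
  have h10 := (sum_eq_sum_iff_of_le fun u hu => (card_le_card (h4 u hu)).trans (h5 u hu).le).1 (by
    have := h.eq
    have hk : 0 < k := h.hk c ▸ card_pos.2 ⟨w, by simpa using h2⟩
    rw [← h9, show k + _ - 1 = k - 1 + #{u | ¬ I u b} by omega, add_mul, mul_comm k] at this
    rw [sum_const, smul_eq_mul]
    omega) w (by simpa using h1)
  have := eq_of_subset_of_card_le (h4 w (by simpa using h1)) (by rw [h10, h5 w (by simpa using h1)])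
  have h11 : c ∈ F.bipartiteAbove I w := this ▸ by simp [h2, h3]
  simp only [F, mem_bipartiteAbove, mem_erase, mem_filter, mem_univ, true_and] at h11
  exact h11.1.2

/-- the elations with axis `b` form a nontrivial group -/
theorem exists_elations [Finite G] {N : Subgroup G} (hN : ∀ g ∈ N, g • b = b ∧ ∀ p, I p b → g • p = p)
    (hn : ∀ g, g • b = b → ∀ a ∈ N, g * a * g⁻¹ ∈ N) (h0 : N ≠ ⊥) (hw : ¬ I w b)
    (ht : ∀ w w', ¬ I w b → ¬ I w' b → ∃ g : G, g • b = b ∧ g • w = w') :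
    ∃ E : Subgroup G, E ≠ ⊥ ∧ ∀ g, g ∈ E ↔ g ∈ N ∧ (g = 1 ∨ ∀ w, ¬ I w b → g • w ≠ w) := by
  have hI : ∀ {g : G} {w}, g • b = b → ¬ I w b → ¬ I (g • w) b := fun {g w} e hw e' =>
    hw ((h.inv g w b).1 (e.symm ▸ e'))
  obtain ⟨K, hK, h1, h2⟩ := CF.Char.frobenius_kernel (stabilizer N w) fun g hg x hx hx' => by
    replace hx' : (x : G) • (g : G)⁻¹ • w = (g : G)⁻¹ • w := by
      rw [eq_inv_smul_iff, ← mul_smul, ← mul_smul]; exact hx'
    exact Subtype.ext (h.le_one (hN _ x.2).2 (hN _ x.2).1 hw (hI (inv_fix (hN _ g.2).1) hw) hx hx'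
      fun e => hg (inv_smul_eq_iff.1 e.symm).symm)
  refine ⟨K.map N.subtype, fun e => h0 (eq_bot_iff.2 fun a ha => h.faith a fun u => ?_), fun g =>
    ⟨?_, fun ⟨hg, e⟩ => ⟨⟨g, hg⟩, (h1 _).2 (e.imp (fun e => Subtype.ext e) fun e x hx => ?_), rfl⟩⟩⟩
  · by_cases hu : I u b
    · exact (hN a ha).2 u hu
    obtain ⟨g, e1, rfl⟩ := ht w u hw hu
    have e2 := h2.sup_eq_top
    rw [(map_eq_bot_iff_of_injective _ N.subtype_injective).1 e, bot_sup_eq] at e2
    have : (g⁻¹ * a * g⁻¹⁻¹) • w = w := e2.ge (mem_top (⟨_, hn _ (inv_fix e1) a ha⟩ : N))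
    rwa [inv_inv, mul_smul, mul_smul, inv_smul_eq_iff] at this
  · rintro ⟨x, hx, rfl⟩
    refine ⟨x.2, or_iff_not_imp_left.2 fun h3 u hu e => ?_⟩
    obtain ⟨p, hp, hd⟩ := Nat.exists_prime_and_dvd (n := orderOf x)
      (mt orderOf_eq_one_iff.1 fun e => h3 (congrArg Subtype.val e))
    have := Fact.mk hp
    obtain ⟨g, e1, rfl⟩ := ht u w hu hw
    obtain ⟨y, hy⟩ := exists_prime_orderOf_dvd_card' (G := zpowers x) p (by rwa [Nat.card_zpowers])
    have e2 : ((y : N) : G) • u = u := (zpowers_le.2 (show x ∈ stabilizer N u from e)) y.2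
    let a : N := ⟨_, hn g e1 _ (y : N).2⟩
    have e3 : (a : G) • g • u = g • u := by simp [a, mul_smul, e2]
    have e4 : orderOf a = p := by
      rw [← orderOf_coe, ← hy, ← orderOf_coe, ← orderOf_coe]
      exact orderOf_eq_orderOf_iff.2 fun n => by simp [a]
    obtain ⟨c, hc, e5, e6⟩ := exists_comm_of_norm hp e4 (hd.trans (K.orderOf_dvd_natCard hx))
      fun c hc => hK.conj_mem c hc a
    have e7 : (a : G) • (c : G) • g • u = (c : G) • g • u := by
      rw [← mul_smul, ← Subgroup.coe_mul, e6, Subgroup.coe_mul, mul_smul, e3]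
    refine e5 (disjoint_def.1 h2.disjoint hc (by_contra fun e8 => hp.ne_one ?_))
    rw [← e4, orderOf_eq_one_iff]
    exact Subtype.ext (h.le_one (hN _ a.2).2 (hN _ a.2).1 (hI (hN _ c.2).1 hw) hw e7 e3 e8)
  · refine e ((x : G)⁻¹ • w) (hI (inv_fix (hN _ x.2).1) hw) ?_
    rw [eq_inv_smul_iff, ← mul_smul, ← mul_smul]; exact hx

theorem exists_commute [Finite G] {N : Subgroup G} (hN : ∀ g ∈ N, g • b = b ∧ ∀ p, I p b → g • p = p)
    (hn : ∀ g, g • b = b → ∀ a ∈ N, g * a * g⁻¹ ∈ N) (hE : ∀ g ∈ N, g ≠ 1 → ∀ w, ¬ I w b → g • w ≠ w)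
    (h0 : N ≠ ⊥) (h2 : IsMultiplyPretransitive G X 2) (hk : 1 < k) (hc : c ≠ b) (hA : ¬ N ≤ stabilizer G c)
    (x y : N) : ∃ t, t ≠ 1 ∧ Commute t x ∧ Commute t y := by
  have := Fintype.ofFinite N
  have := (nontrivial_iff_ne_bot N).2 h0
  have h1 : ∀ K : Finset N, 1 ∉ K → (∀ g (hg : g • b = b), ∀ a ∈ K, ⟨_, hn g hg _ a.2⟩ ∈ K) →
      #K * (k - 1) = (Fintype.card X - 1) * #{a ∈ K | a ∈ stabilizer N c} := fun K h1 hK => by
    rw [← card_univ, ← card_erase_of_mem (mem_univ b)]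
    refine card_mul_eq_card_mul (fun (a : N) (c : X) => (a : G) • c = c) (fun a ha => ?_) fun d hd => ?_
    · rw [← h.card_fix (hN _ a.2).2 (hN _ a.2).1 (hE _ a.2 fun e => h1 ((Subtype.ext e : a = 1) ▸ ha))]
      exact congrArg _ (Finset.ext fun c => by simp)
    · obtain ⟨g, e1, rfl⟩ := twoTrans_iff.1 h2 b d b c (ne_of_mem_erase hd).symm hc.symm
      refine card_bij' (fun a _ => ⟨_, hn g e1 _ a.2⟩) (fun a _ => ⟨_, hn g⁻¹ (inv_fix e1) _ a.2⟩)
        (fun a ha => ?_) (fun a ha => ?_) (fun a _ => Subtype.ext (by simp [mul_assoc]))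
        fun a _ => Subtype.ext (by simp [mul_assoc])
      · simp only [mem_bipartiteBelow] at ha
        exact mem_filter.2 ⟨hK g e1 a ha.1, show (g * a * g⁻¹) • g • d = g • d by simp [mul_smul, ha.2]⟩
      · have : (a : G) • g • d = g • d := (mem_filter.1 ha).2
        exact mem_bipartiteBelow _ |>.2 ⟨hK _ (inv_fix e1) a (mem_filter.1 ha).1, by simp [mul_smul, this]⟩
  have h3 := h1 (univ.erase 1) (notMem_erase _ _) fun g hg a ha => mem_erase.2
    ⟨fun e => ne_of_mem_erase ha (Subtype.ext (conj_eq_one_iff.1 (congrArg Subtype.val e))), mem_univ _⟩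
  rw [filter_erase, card_erase_of_mem (mem_univ _), card_erase_of_mem (by simp), card_univ,
    ← Nat.card_eq_fintype_card, ← Fintype.card_subtype, ← Nat.card_eq_fintype_card (α := {a // a ∈ _})] at h3
  have h4 := (stabilizer N c).card_mul_index
  have h5 : 1 < Nat.card N := Finite.one_lt_card
  have h6 : ∀ x : N, (centralizer {x}).index * (centralizer {x}).index < Nat.card N := fun x => by
    by_cases hx : x = 1
    · rw [hx, (centralizer_eq_top_iff_subset).2 (by simp), index_top]; exact h5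
    let K : Finset N := {a | a ≠ 1 ∧ (centralizer {a}).index = (centralizer {x}).index}
    have h7 : ∀ g (hg : g • b = b), ∀ a ∈ K, ⟨_, hn g hg _ a.2⟩ ∈ K := fun g hg a ha => by
      simp only [K, mem_filter, mem_univ, true_and] at ha ⊢
      refine ⟨fun e => ha.1 (Subtype.ext (conj_eq_one_iff.1 (congrArg Subtype.val e))), Eq.trans ?_ ha.2⟩
      let e := N.normalizerMonoidHom ⟨g, mem_normalizer_fintype (hn g hg)⟩
      rw [← (centralizer {a}).index_map_equiv e]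
      congr 1
      ext y
      obtain ⟨y, rfl⟩ := e.surjective y
      refine Iff.trans ?_ (mem_map_iff_mem e.injective).symm
      rw [mem_centralizer_singleton_iff, mem_centralizer_singleton_iff, ← e.injective.eq_iff (a := y * a),
        map_mul, map_mul]
      rfl
    obtain ⟨m, hm⟩ := dvd_card_of_index (centralizer {x}).index K (fun a ha a' e => by
      obtain ⟨g, rfl⟩ := isConj_iff.1 e
      exact h7 g (hN _ g.2).1 a ha) fun a ha => (mem_filter.1 ha).2.2
    have h8 := h1 K (by simp [K]) h7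
    have h9 : #K ≤ Nat.card N - 1 := by
      rw [Nat.card_eq_fintype_card, ← card_univ, ← card_erase_of_mem (mem_univ 1)]
      exact card_le_card fun a ha => mem_erase.2 ⟨(mem_filter.1 ha).2.1, mem_univ _⟩
    have h10 : 0 < #K := card_pos.2 ⟨x, by simp [K, hx]⟩
    rw [← h4] at h3 h9 h5 ⊢
    refine ito_arith (m := m) (t := #{a ∈ K | a ∈ stabilizer N c}) ?_ ?_ (h4 ▸ index_dvd_card _)
      (Nat.pos_of_mul_pos_left (hm ▸ h10)) (hm ▸ h9) (Nat.eq_of_mul_eq_mul_right (m := k - 1) (by omega) ?_)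
    · by_contra hc
      have : 0 < (Nat.card (stabilizer N c) * (stabilizer N c).index - 1) * (k - 1) :=
        Nat.mul_pos (by omega) (by omega)
      rw [h3, show Nat.card (stabilizer N c) - 1 = 0 by omega] at this
      omega
    · exact one_lt_index_of_ne_top fun e => hA fun a ha => e.ge (mem_top (⟨a, ha⟩ : N))
    · rw [mul_assoc, h3, ← hm, mul_right_comm #K, h8]; ring
  by_contra! hc
  have h7 := index_inf_le (H := centralizer {x}) (K := centralizer {y})
  rw [(eq_bot_iff_forall _).2 fun t ht => by_contra fun e => hc t e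
    (mem_centralizer_singleton_iff.1 (mem_inf.1 ht).1) (mem_centralizer_singleton_iff.1 (mem_inf.1 ht).2),
    index_bot] at h7
  nlinarith [h6 x, h6 y]

theorem exists_abelian [Finite G] {N : Subgroup G} (hN : ∀ g ∈ N, g • b = b ∧ ∀ p, I p b → g • p = p)
    (hn : ∀ g, g • b = b → ∀ a ∈ N, g * a * g⁻¹ ∈ N) (h0 : N ≠ ⊥) (hw : ¬ I w b)
    (ht : ∀ w w', ¬ I w b → ¬ I w' b → ∃ g : G, g • b = b ∧ g • w = w')
    (h2 : IsMultiplyPretransitive G X 2) (hk : 1 < k) (hf : ∀ g : G, (∀ c : X, g • c = c) → g = 1) :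
    ∃ A : Subgroup G, A ≠ ⊥ ∧ A ≤ N ∧ (∀ g, g • b = b → ∀ a ∈ A, g * a * g⁻¹ ∈ A) ∧
      ∀ a ∈ A, ∀ a' ∈ A, a * a' = a' * a := by
  obtain ⟨E, hE0, hE⟩ := h.exists_elations hN hn h0 hw ht
  obtain ⟨M, ⟨hM0, hME, hM⟩, hmin⟩ := exists_minimal_of_wellFoundedLT
    (fun M : Subgroup G => M ≠ ⊥ ∧ M ≤ E ∧ ∀ g, g • b = b → ∀ a ∈ M, g * a * g⁻¹ ∈ M)
    ⟨E, hE0, le_rfl, fun g hg a ha => (hE _).2 ⟨hn g hg a ((hE a).1 ha).1, ((hE a).1 ha).2.imp
      (fun e => by simp [e]) fun e u hu e' => e (g⁻¹ • u) (fun e => hu (by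
        simpa [hg] using (h.inv g _ _).2 e)) (by rwa [eq_inv_smul_iff, ← mul_smul, ← mul_smul])⟩⟩
  have h1 : ∀ g ∈ M, g • b = b ∧ ∀ p, I p b → g • p = p := fun g hg => hN g ((hE g).1 (hME hg)).1
  have h3 : ∀ g ∈ M, g ≠ 1 → ∀ w, ¬ I w b → g • w ≠ w := fun g hg e =>
    ((hE g).1 (hME hg)).2.resolve_left e
  have hA : ∀ c, c ≠ b → ¬ M ≤ stabilizer G c := fun c hc e => hM0 (eq_bot_iff.2 fun a ha => hf a fun d => by
    by_cases hd : b = d
    · exact hd ▸ (h1 a ha).1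
    obtain ⟨g, e1, rfl⟩ := twoTrans_iff.1 h2 b c b d hc.symm hd
    have : _ = _ := e (hM _ (inv_fix e1) a ha)
    rwa [inv_inv, mul_smul, mul_smul, inv_smul_eq_iff] at this)
  have := (nontrivial_iff_ne_bot M).2 hM0
  have h4 : ∀ g : M, g ≠ 1 → ∀ c, I w c → ((g : G) • c = c ↔ I ((g : G) • w) c) := fun g hg c hc =>
    ⟨h.inv' hc, h.elation (h1 _ g.2).2 (h1 _ g.2).1 (h3 _ g.2 fun e => hg (Subtype.ext e)) hw hc⟩
  have h5 : ∀ g : M, g ≠ 1 → #{c | I w c ∧ (g : G) • c = c} = l := fun g hg => by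
    rw [← h.hl _ _ (h3 _ g.2 (fun e => hg (Subtype.ext e)) w hw).symm]
    exact congrArg _ (filter_congr fun c _ => and_congr_right (h4 g hg c))
  obtain ⟨c₀, hc₀⟩ := card_pos.1 (h.hr w ▸ one_pos.trans hk : 0 < #{b | I w b})
  obtain ⟨p, hp, M₀, hM₀, h6⟩ := partition_exp
    (fun g : M => ⨅ c ∈ ({c | I w c ∧ (g : G) • c = c} : Finset X), stabilizer M c)
    (fun g => by simp only [mem_iInf]; exact fun c hc => (mem_filter.1 hc).2.2)
    (fun g g' hg hg' e => by
      simp only [mem_iInf] at e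
      rw [← eq_of_subset_of_card_le (s := {c | I w c ∧ (g : G) • c = c}) (fun c hc => mem_filter.2
        ⟨mem_univ _, (mem_filter.1 hc).2.1, e c hc⟩) (by rw [h5 g hg, h5 g' hg'])])
    (fun g hg e => by
      obtain ⟨c, hc⟩ := card_pos.1 (h5 g hg ▸ h.lpos)
      refine hA c (fun e => hw (e ▸ (mem_filter.1 hc).2.1)) fun a ha => ?_
      have := e.ge (mem_top (⟨a, ha⟩ : M))
      simp only [mem_iInf] at this
      exact this c hc)
    (h.exists_commute h1 hM h3 hM0 h2 hk (c := c₀) (fun e => hw (e ▸ (mem_filter.1 hc₀).2))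
      (hA _ fun e => hw (e ▸ (mem_filter.1 hc₀).2)))
  have h7 : ∀ a ∈ M, a ^ p = 1 := fun a ha => by_contra fun e => by
    have h8 : closure {a | a ∈ M ∧ a ^ p ≠ 1} ≤ M := (closure_le _).2 fun a ha => ha.1
    have h9 := hmin (y := closure {a | a ∈ M ∧ a ^ p ≠ 1}) ⟨fun e' => e (by
      rw [show a = 1 from e'.le (subset_closure ⟨ha, e⟩), one_pow]), h8.trans hME, fun g hg x hx => by
        induction hx using closure_induction with
        | mem x hx => exact subset_closure ⟨hM g hg x hx.1, by simpa using hx.2⟩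
        | one => simp
        | mul x y _ _ hx hy => simpa [mul_assoc] using mul_mem hx hy
        | inv x _ hx => simpa [mul_assoc] using inv_mem hx⟩ h8
    refine hM₀ (eq_top_iff.2 fun x _ => ?_)
    obtain ⟨y, hy, e⟩ := h9.trans ((closure_le (M₀.map M.subtype)).2 fun a ha => ⟨⟨a, ha.1⟩,
      by_contra fun e => ha.2 (congrArg Subtype.val (h6 _ e)), rfl⟩) x.2
    exact (Subtype.ext e : y = x) ▸ hy
  have := Fact.mk hp
  have h8 : IsPGroup p M := fun a => ⟨1, Subtype.ext (by simpa using h7 a a.2)⟩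
  have := h8.center_nontrivial
  obtain ⟨⟨z, hz⟩, hz1⟩ := exists_ne (1 : center M)
  refine ⟨M ⊓ centralizer M, ne_bot_iff_exists_ne_one.2 ⟨⟨z, mem_inf.2 ⟨z.2, fun a ha => congrArg Subtype.val
    (mem_center_iff.1 hz ⟨a, ha⟩)⟩⟩, fun e => hz1 (Subtype.ext (Subtype.ext (by simpa using e)))⟩,
    fun a ha => ((hE a).1 (hME ha.1)).1, fun g hg a ha => mem_inf.2 ⟨hM g hg a ha.1, fun x hx => ?_⟩,
    fun a ha a' ha' => ha'.2 a ha.1⟩
  have := ha.2 _ (hM _ (inv_fix hg) x hx)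
  rw [inv_inv] at this
  calc x * (g * a * g⁻¹) = g * (g⁻¹ * x * g * a) * g⁻¹ := by group
    _ = _ := by rw [this]; group

end SD

theorem ito [Finite G] [FaithfulSMul G Ω] (h2 : IsMultiplyPretransitive G Ω 2) (H : Subgroup G)
    (hidx : H.index = Nat.card Ω) (hnt : ¬ IsPretransitive H Ω) (hfix : ∀ a : Ω, ∃ h : H, h • a ≠ a)
    (hunf : ∃ a : Ω, ∃ h : H, h ≠ 1 ∧ ∀ b ∈ orbit H a, h • b = b) :
    ∃ (m : ℕ) (F : Type) (_ : Field F) (_ : Fintype F), 2 ≤ m ∧
      Nat.card Ω = (Fintype.card F ^ (m + 1) - 1) / (Fintype.card F - 1) ∧ ∃ N : Subgroup G, N.Normal ∧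
      Nonempty (N ≃* Matrix.ProjectiveSpecialLinearGroup (Fin (m + 1)) F) ∧ centralizer (N : Set G) = ⊥ := by
  obtain ⟨a, g₀, hg₀, hg₀'⟩ := hunf
  have := Fintype.ofFinite (G ⧸ H)
  let I : Ω → G ⧸ H → Prop := fun p c => ∃ g : G, g • a = p ∧ (g : G ⧸ H) = c
  have hI : ∀ (g : G) p b, I (g • p) (g • b) ↔ I p b := fun g p b =>
    ⟨fun ⟨k, e1, e2⟩ => ⟨g⁻¹ * k, by rw [mul_smul, e1, inv_smul_smul], by
      rw [← smul_eq_mul, ← Quotient.smul_coe, e2, inv_smul_smul]⟩,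
    fun ⟨k, e1, e2⟩ => ⟨g * k, by rw [mul_smul, e1], by rw [← smul_eq_mul, ← Quotient.smul_coe, e2]⟩⟩
  let b : G ⧸ H := (1 : G)
  have hb : ∀ p, I p b ↔ p ∈ orbit H a := fun p => ⟨fun ⟨g, e1, e2⟩ =>
    ⟨⟨g, by simpa using QuotientGroup.eq.1 e2⟩, e1⟩, fun ⟨g, e⟩ => ⟨g, e, QuotientGroup.eq.2 (by simp)⟩⟩
  have hs : ∀ g : G, g • b = b ↔ g ∈ H := fun g => by rw [← mem_stabilizer_iff, stabilizer_quotient]
  obtain ⟨w, hw⟩ : ∃ w, ¬ I w b := by
    by_contra! hc
    exact hnt ((isPretransitive_iff_orbit_eq_univ a).2 (Set.eq_univ_of_forall fun p => (hb p).1 (hc p)))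
  have ha : I a b := (hb a).2 (mem_orbit_self a)
  have : Nontrivial Ω := ⟨a, w, fun e => hw (e ▸ ha)⟩
  have : Nontrivial (G ⧸ H) := Finite.one_lt_card_iff_nontrivial.1 (hidx ▸ Finite.one_lt_card : 1 < H.index)
  have := isPretransitive_of_is_two_pretransitive (G := G) (α := Ω)
  obtain ⟨h3, h4, ht⟩ := card_fixedBy_eq_of_inc h2 hidx hI ha hw
  have hc : Fintype.card (G ⧸ H) = Fintype.card Ω := by
    rw [← Nat.card_eq_fintype_card, ← Nat.card_eq_fintype_card]; exact hidx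
  obtain ⟨k, l, e1, e2, e3, e4⟩ := exists_design h2 hc hI
  obtain ⟨k', l', e1', -, e3', e4'⟩ := exists_design (I := fun b p => I p b) h4 hc.symm fun g b p => hI g p b
  obtain rfl : k = k' := (e2 a).symm.trans (e1' a)
  have hv : 1 < Fintype.card Ω := Fintype.one_lt_card
  obtain rfl : l = l' := Nat.eq_of_mul_eq_mul_left (by omega) (e4.symm.trans (hc ▸ e4'))
  have hk : 1 < k := by
    obtain ⟨g, hg⟩ := hfix a
    exact e1 b ▸ one_lt_card.2 ⟨_, by simpa using (hb _).2 (mem_orbit a g), a, by simpa using ha, hg⟩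
  have h5 : ∀ g : G, #{b : G ⧸ H | g • b = b} = #{p : Ω | g • p = p} := fun g => by
    have := h3 g
    rwa [Nat.card_eq_fintype_card, Nat.card_eq_fintype_card, Fintype.card_subtype, Fintype.card_subtype] at this
  have hf : ∀ g : G, (∀ p : Ω, g • p = p) → g = 1 := fun g hg =>
    eq_of_smul_eq_smul (α := Ω) fun p => by rw [hg, one_smul]
  have hf' : ∀ g : G, (∀ c : G ⧸ H, g • c = c) → g = 1 := fun g hg => hf g fun p => by
    have := h5 g
    rw [filter_true_of_mem fun c _ => hg c, card_univ, hc, eq_comm, card_eq_iff_eq_univ] at this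
    exact (mem_filter.1 (this.ge (mem_univ p))).2
  have h : SD G I k l := ⟨hI, e1, e2, e3, e3', e4, fun g => by convert h5 g, Nat.pos_of_ne_zero fun e => by
    rw [e, mul_zero, mul_eq_zero] at e4; omega, hf⟩
  obtain ⟨A, hA0, hA, hA1, hA2⟩ := h.exists_abelian (b := b) (N := H ⊓ fixingSubgroup G (orbit H a))
    (fun g hg => ⟨(hs g).2 hg.1, fun p hp => (mem_fixingSubgroup_iff G).1 hg.2 p ((hb p).1 hp)⟩)
    (fun g hg x hx => mem_inf.2 ⟨mul_mem (mul_mem ((hs g).1 hg) hx.1) (inv_mem ((hs g).1 hg)),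
      (mem_fixingSubgroup_iff G).2 fun p hp => by
        rw [mul_smul, mul_smul, (mem_fixingSubgroup_iff G).1 hx.2 _ ((hb _).1 (h.inv' ((hb p).2 hp)
          (inv_fix hg))), smul_inv_smul]⟩)
    (ne_bot_iff_exists_ne_one.2 ⟨⟨g₀, mem_inf.2 ⟨g₀.2, (mem_fixingSubgroup_iff G).2 hg₀'⟩⟩,
      fun e => hg₀ (Subtype.ext (by simpa using e))⟩) hw ht h4 hk hf'
  have : FaithfulSMul G (G ⧸ H) := ⟨fun {g g'} e => inv_mul_eq_one.1 (hf' _ fun c => by
    rw [mul_smul, ← e, inv_smul_smul])⟩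
  obtain ⟨M, -, hM⟩ := onan h4 b A (fun g hg => (hs g).2 (hA hg).1) hA1 hA2 (by
    obtain ⟨⟨n, hn⟩, h1⟩ := ne_bot_iff_exists_ne_one.1 hA0
    have h6 := card_le_card (s := {p | I p b}) (t := {p | n • p = p}) fun p hp => mem_filter.2
      ⟨mem_univ _, (mem_fixingSubgroup_iff G).1 (hA hn).2 p ((hb p).1 (mem_filter.1 hp).2)⟩
    rw [e1, ← h5] at h6
    obtain ⟨y, hy, e⟩ := exists_mem_ne (hk.trans_le h6) b
    exact ⟨n, hn, fun e => h1 (Subtype.ext e), y, e, (mem_filter.1 hy).2⟩)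
  obtain ⟨F, _, _, n, e, L, hn, hL, h6, h7, -⟩ := hM.main
  obtain ⟨m, rfl⟩ : ∃ m, n = m + 1 := ⟨n - 1, by omega⟩
  refine ⟨m, F, inferInstance, inferInstance, by omega, ?_, L, hL, h7, h6⟩
  rw [← hidx, index, Nat.card_congr e, Projectivization.card'', Nat.card_fun, Nat.card_eq_fintype_card,
    Nat.card_eq_fintype_card, Fintype.card_fin]

theorem ito_solvable [Finite G] [FaithfulSMul G Ω] (H : Subgroup G) (N : Subgroup H) (hN : N.Normal)
    (hN1 : N ≠ ⊥) (hNfix : ∃ a : Ω, ∀ x ∈ N, x • a = a) :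
    ∃ a : Ω, ∃ h : H, h ≠ 1 ∧ ∀ b ∈ orbit H a, h • b = b := by
  obtain ⟨a, ha⟩ := hNfix
  obtain ⟨⟨x, hx⟩, h1⟩ := ne_bot_iff_exists_ne_one.1 hN1
  refine ⟨a, x, fun e => h1 (Subtype.ext e), fun _ ⟨g, e⟩ => ?_⟩
  have := ha _ (hN.conj_mem x hx g⁻¹)
  rwa [inv_inv, mul_smul, mul_smul, inv_smul_eq_iff, show g • a = _ from e] at this

end CF.Perm
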