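import Mathlib
import Cfsg.Agent.S4201

/-!
# Commuting pairs in permutation groups: basic counting
-/

set_option linter.unusedSectionVars false

namespace CF.KD

open Finset MulAction

variable {G Ω : Type*} [Group G] [MulAction G Ω]

/-- The stabilizer of a point in a subgroup. -/
def st (L : Subgroup G) (ω : Ω) : Subgroup G := L ⊓ stabilizer G ω

/-- The length of an orbit. -/
noncomputable def d (L : Subgroup G) (ω : Ω) : ℕ := Nat.card (orbit L ω)

/-- The order of the centralizer of `x` in `L`. -/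
noncomputable def cz (L : Subgroup G) (x : G) : ℕ := Nat.card ↥(L ⊓ Subgroup.centralizer {x})

/-- The number of commuting pairs in `L × X`. -/
noncomputable def cm (L : Subgroup G) (X : Finset G) : ℝ := ∑ x ∈ X, (cz L x : ℝ)

theorem mem_st {L : Subgroup G} {ω : Ω} {g : G} : g ∈ st L ω ↔ g ∈ L ∧ g • ω = ω := Iff.rfl

theorem mem_ob {L : Subgroup G} {a b : Ω} : a ∈ orbit L b ↔ ∃ l ∈ L, l • b = a :=
  ⟨fun ⟨l, h⟩ => ⟨l, l.2, h⟩, fun ⟨l, hl, h⟩ => ⟨⟨l, hl⟩, h⟩⟩

theorem ob_eq {L : Subgroup G} {a b : Ω} : orbit L a = orbit L b ↔ ∃ l ∈ L, l • b = a :=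
  orbit_eq_iff.trans mem_ob

theorem st_mul (L : Subgroup G) (ω : Ω) : Nat.card (st L ω) * d L ω = Nat.card L := by
  have h := Nat.card_congr (orbitProdStabilizerEquivGroup L ω)
  rw [Nat.card_prod] at h
  rw [← h, mul_comm, d]
  congr 1
  exact Nat.card_congr ⟨fun x => ⟨⟨x, x.2.1⟩, x.2.2⟩, fun x => ⟨x.1, x.1.2, x.2⟩, fun _ => rfl,
    fun _ => rfl⟩

theorem mem_cz {L : Subgroup G} {x l : G} :
    l ∈ L ⊓ Subgroup.centralizer {x} ↔ l ∈ L ∧ l * x = x * l := by
  rw [Subgroup.mem_inf, Subgroup.mem_centralizer_singleton_iff]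

theorem cz_st {M : Subgroup G} {β : Ω} (h : ∀ m ∈ M, m • β = β) (x : G) :
    cz M x = cz (st M (x • β)) x := by
  unfold cz
  congr 2
  ext l
  simp only [mem_cz, mem_st]
  exact ⟨fun ⟨h1, h2⟩ => ⟨⟨h1, by rw [← mul_smul, h2, mul_smul, h l h1]⟩, h2⟩,
    fun ⟨h1, h2⟩ => ⟨h1.1, h2⟩⟩

theorem cm_dec [DecidableEq Ω] {M : Subgroup G} {β : Ω} (h : ∀ m ∈ M, m • β = β) (X : Finset G)
    {Γ : Finset Ω} (hΓ : ∀ x ∈ X, x • β ∈ Γ) :
    cm M X = ∑ γ ∈ Γ, cm (st M γ) (X.filter (· • β = γ)) := by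
  unfold cm
  rw [← sum_fiberwise_of_maps_to hΓ]
  refine sum_congr rfl fun γ _ => sum_congr rfl fun x hx => ?_
  rw [cz_st h x, (mem_filter.1 hx).2]

theorem cm_nonneg (L : Subgroup G) (X : Finset G) : 0 ≤ cm L X :=
  sum_nonneg fun _ _ => Nat.cast_nonneg _

variable [Fintype Ω]

theorem d_pos (L : Subgroup G) (ω : Ω) : 0 < d L ω :=
  have : Nonempty (orbit L ω) := ⟨⟨ω, mem_orbit_self ω⟩⟩
  Nat.card_pos

theorem d_mono {L M : Subgroup G} (h : M ≤ L) (ω : Ω) : d M ω ≤ d L ω :=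
  Nat.card_mono (Set.toFinite _) fun _ ha =>
    let ⟨l, hl, h1⟩ := mem_ob.1 ha; mem_ob.2 ⟨l, h hl, h1⟩

theorem d_one {L : Subgroup G} {ω : Ω} (h : ∀ l ∈ L, l • ω = ω) : d L ω = 1 := by
  have : orbit L ω = {ω} := Set.eq_singleton_iff_unique_mem.2 ⟨mem_orbit_self ω, fun a ha =>
    let ⟨l, hl, h1⟩ := mem_ob.1 ha; h1 ▸ h l hl⟩
  rw [d, this]; simp

open Classical in
/-- The orbit as a finset. -/
noncomputable def fo (L : Subgroup G) (ω : Ω) : Finset Ω := univ.filter (· ∈ orbit L ω)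

theorem mem_fo {L : Subgroup G} {a b : Ω} : a ∈ fo L b ↔ ∃ l ∈ L, l • b = a := by
  simp only [fo, mem_filter, mem_univ, true_and, mem_ob]

theorem card_fo (L : Subgroup G) (ω : Ω) : (fo L ω).card = d L ω := by
  classical
  rw [d, Nat.card_eq_fintype_card, Fintype.card_subtype]
  congr 1

theorem d_eq {L : Subgroup G} {a b : Ω} (h : a ∈ fo L b) : d L a = d L b := by
  rw [d, d, ob_eq.2 (mem_fo.1 h)]

open Classical in
/-- The number of orbits meeting `S`. -/
noncomputable def no (L : Subgroup G) (S : Finset Ω) : ℕ := (S.image fun a => orbit L a).card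

theorem sum_inv_le (L : Subgroup G) (S : Finset Ω) : ∑ γ ∈ S, (1 : ℝ) / d L γ ≤ no L S := by
  classical
  rw [← sum_fiberwise_of_maps_to (s := S) (g := fun a => orbit L a)
    fun a ha => mem_image_of_mem _ ha, no, card_eq_sum_ones, Nat.cast_sum]
  refine sum_le_sum fun O hO => ?_
  obtain ⟨a, -, rfl⟩ := mem_image.1 hO
  have h1 : (S.filter fun b => orbit L b = orbit L a) ⊆ fo L a := fun b hb =>
    mem_fo.2 (ob_eq.1 (mem_filter.1 hb).2)
  rw [sum_congr rfl fun b hb => by rw [d_eq (h1 hb)], sum_const, nsmul_eq_mul, mul_one_div,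
    Nat.cast_one, div_le_one (by exact_mod_cast d_pos L a), ← card_fo]
  exact_mod_cast card_le_card h1

theorem sum_inv_eq (L : Subgroup G) {S : Finset Ω} (hS : ∀ l ∈ L, ∀ a ∈ S, l • a ∈ S) :
    ∑ γ ∈ S, (1 : ℝ) / d L γ = no L S := by
  classical
  rw [← sum_fiberwise_of_maps_to (s := S) (g := fun a => orbit L a)
    fun a ha => mem_image_of_mem _ ha, no, card_eq_sum_ones, Nat.cast_sum]
  refine sum_congr rfl fun O hO => ?_
  obtain ⟨a, ha, rfl⟩ := mem_image.1 hO
  have h1 : (S.filter fun b => orbit L b = orbit L a) = fo L a := by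
    ext b
    rw [mem_filter, ob_eq, mem_fo]
    exact ⟨fun h => h.2, fun ⟨l, hl, h⟩ => ⟨h ▸ hS l hl a ha, l, hl, h⟩⟩
  rw [h1, sum_congr rfl fun b hb => by rw [d_eq hb], sum_const, nsmul_eq_mul, mul_one_div,
    Nat.cast_one, card_fo, div_self (by exact_mod_cast (d_pos L a).ne')]

theorem inv_d_mono {L M : Subgroup G} (h : M ≤ L) (ω : Ω) : (1 : ℝ) / d L ω ≤ 1 / d M ω :=
  one_div_le_one_div_of_le (by exact_mod_cast d_pos M ω) (by exact_mod_cast d_mono h ω)

/-- New orbits inside an invariant set are new orbits overall. -/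
theorem no_add {L M : Subgroup G} (h : M ≤ L) {S : Finset Ω} (hS : ∀ l ∈ L, ∀ a ∈ S, l • a ∈ S) :
    no L (univ : Finset Ω) + no M S ≤ no M (univ : Finset Ω) + no L S := by
  classical
  have h1 := sum_inv_eq L hS
  have h2 := sum_inv_eq M (S := S) fun l hl => hS l (h hl)
  have h3 := sum_inv_eq L (S := (univ : Finset Ω)) fun _ _ _ _ => mem_univ _
  have h4 := sum_inv_eq M (S := (univ : Finset Ω)) fun _ _ _ _ => mem_univ _
  rw [← sum_add_sum_compl S] at h3 h4
  have h5 := sum_le_sum (s := Sᶜ) fun a _ => inv_d_mono h a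
  have : (no L (univ : Finset Ω) + no M S : ℝ) ≤ no M (univ : Finset Ω) + no L S := by linarith
  exact_mod_cast this

theorem no_mono (L : Subgroup G) {S T : Finset Ω} (h : S ⊆ T) : no L S ≤ no L T := by
  classical
  unfold no
  convert card_le_card (image_subset_image h)

theorem no_le (L : Subgroup G) (S : Finset Ω) : no L S ≤ S.card := by
  classical
  unfold no
  convert card_image_le

variable [Fintype G]

theorem st_eq (L : Subgroup G) (ω : Ω) : (Nat.card (st L ω) : ℝ) = Nat.card L * (1 / d L ω) := by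
  rw [← st_mul L ω, Nat.cast_mul, mul_assoc, mul_one_div_cancel (by exact_mod_cast (d_pos L ω).ne'),
    mul_one]

theorem cm_sub (L : Subgroup G) (β : Ω) (X : Finset G) :
    cm L X * Nat.card (st L β) ≤ cm (st L β) X * Nat.card L := by
  unfold cm
  rw [sum_mul, sum_mul]
  refine sum_le_sum fun x _ => ?_
  have h1 := st_mul (L ⊓ Subgroup.centralizer {x}) β
  have h2 := d_mono (inf_le_left : L ⊓ Subgroup.centralizer {x} ≤ L) β
  have h3 : st (L ⊓ Subgroup.centralizer {x}) β = st L β ⊓ Subgroup.centralizer {x} :=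
    inf_right_comm _ _ _
  rw [h3] at h1
  rw [cz, cz, ← h1, ← st_mul L β]
  norm_cast
  rw [mul_assoc, mul_comm (d _ _)]
  exact Nat.mul_le_mul_left _ (Nat.mul_le_mul_left _ h2)

/-- A bound relative to a point stabilizer is a bound relative to the group. -/
theorem cm_of_st {L : Subgroup G} {β : Ω} {X : Finset G} {c : ℝ}
    (h : cm (st L β) X ≤ Nat.card (st L β) * c) : cm L X ≤ Nat.card L * c := by
  have h0 : (0 : ℝ) < Nat.card (st L β) := by exact_mod_cast Nat.card_pos
  have h1 : (0 : ℝ) ≤ Nat.card L := Nat.cast_nonneg _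
  refine le_of_mul_le_mul_right ((cm_sub L β X).trans ?_) h0
  nlinarith

open Classical in
/-- A subgroup as a finset. -/
noncomputable def fs (L : Subgroup G) : Finset G := univ.filter (· ∈ L)

omit [Fintype Ω] in
theorem mem_fs {L : Subgroup G} {x : G} : x ∈ fs L ↔ x ∈ L := by simp [fs]

open Classical in
theorem cm_swap (L : Subgroup G) (X : Finset G) :
    cm L X = ∑ l ∈ fs L, ((X.filter fun x => l * x = x * l).card : ℝ) := by
  have h : ∀ x, cz L x = ((fs L).filter fun l => l * x = x * l).card := fun x => by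
    rw [cz, Nat.card_eq_fintype_card, Fintype.card_subtype]
    congr 1
    ext l
    simp only [mem_filter, mem_univ, true_and, mem_cz, mem_fs]
  simp only [cm, h, card_filter, Nat.cast_sum]
  exact sum_comm

theorem cm_coset (L H : Subgroup G) {X : Finset G} (hX : ∀ x ∈ X, ∀ y ∈ X, x⁻¹ * y ∈ H) :
    cm L X ≤ cm L (fs H) := by
  classical
  rw [cm_swap, cm_swap]
  refine sum_le_sum fun l _ => Nat.cast_le.2 ?_
  rcases (X.filter fun x => l * x = x * l).eq_empty_or_nonempty with h | ⟨x, hx⟩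
  · rw [h]; simp
  rw [mem_filter] at hx
  refine card_le_card_of_injOn (x⁻¹ * ·) (fun y hy => ?_) fun _ _ _ _ h => mul_left_cancel h
  rw [mem_coe, mem_filter] at hy ⊢
  refine ⟨mem_fs.2 (hX x hx.1 y hy.1), ?_⟩
  exact ((show Commute l x from hx.2).inv_right.mul_right hy.2).eq

theorem cm_self (L : Subgroup G) :
    cm L (fs L) = Nat.card L * Nat.card (ConjClasses L) := by
  classical
  have h := card_comm_eq_card_conjClasses_mul_card L
  rw [← Nat.cast_mul, mul_comm, ← h, cm_swap, ← Nat.cast_sum, ← card_sigma, Nat.card_eq_fintype_card,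
    Fintype.card_subtype]
  congr 1
  symm
  refine card_bij (fun p _ => ⟨p.1.1, p.2.1⟩) (fun p hp => ?_) (fun p _ q _ h => ?_) fun p hp => ?_
  · simp only [mem_sigma, mem_filter, mem_fs, SetLike.coe_mem, true_and]
    exact congrArg Subtype.val (mem_filter.1 hp).2
  · simp only [Sigma.mk.injEq, heq_eq_eq] at h
    exact Prod.ext (Subtype.ext h.1) (Subtype.ext h.2)
  · simp only [mem_sigma, mem_filter, mem_fs] at hp
    exact ⟨(⟨p.1, hp.1⟩, ⟨p.2, hp.2.1⟩), mem_filter.2 ⟨mem_univ _, Subtype.ext hp.2.2⟩, rfl⟩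

end CF.KD
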