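import Cfsg.Agent.Perm.KD

/-!
# Classes of semiregular elements: a Fibonacci bound
-/

set_option linter.unusedSectionVars false

namespace CF.KD

open Finset MulAction

variable {G Ω : Type*} [Group G] [MulAction G Ω] [Fintype Ω] [Fintype G] [DecidableEq Ω]

/-- Semiregular elements. -/
def SR (Ω : Type*) [MulAction G Ω] (x : G) : Prop := ∀ (i : ℕ) (ω : Ω), x ^ i • ω = ω → x ^ i = 1

/-- The pointwise stabilizer. -/
def fx (G : Type*) [Group G] [MulAction G Ω] (A : Finset Ω) : Subgroup G :=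
  fixingSubgroup G (A : Set Ω)

theorem mem_fx {A : Finset Ω} {g : G} : g ∈ fx G A ↔ ∀ a ∈ A, g • a = a := by
  simp only [fx, mem_fixingSubgroup_iff, mem_coe]

theorem st_fx (A : Finset Ω) (β : Ω) : st (fx G A) β = fx G (insert β A) := by
  ext g
  simp only [mem_st, mem_fx, forall_mem_insert, and_comm]

theorem st_le (L : Subgroup G) (a : Ω) : st L a ≤ L := inf_le_left

theorem le_fib (r : ℕ) : r ≤ Nat.fib (r + 1) := by
  induction r with
  | zero => simp
  | succ r ih =>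
    rcases r with _ | r
    · simp
    · have : 0 < Nat.fib (r + 1) := Nat.fib_pos.2 (Nat.succ_pos r)
      rw [Nat.fib_add_two]
      omega

theorem fib1 (j r : ℕ) : r * Nat.fib (j + 1) ≤ Nat.fib (j + r + 1) := by
  rw [Nat.fib_add, mul_comm]
  exact (Nat.mul_le_mul_left _ (le_fib r)).trans (Nat.le_add_left _ _)

theorem fib2 (j r : ℕ) : Nat.fib (j + 1) + r * Nat.fib (j + 2) ≤ Nat.fib (j + r + 2) := by
  rcases r with _ | r
  · simpa using Nat.fib_le_fib_succ
  rw [show j + (r + 1) + 2 = (j + 1) + (r + 1) + 1 by omega, Nat.fib_add (j + 1), mul_comm (r + 1)]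
  exact Nat.add_le_add (Nat.le_mul_of_pos_right _ (Nat.fib_pos.2 (Nat.succ_pos r)))
    (Nat.mul_le_mul_left _ (le_fib (r + 1)))

theorem no_conj (A : Finset Ω) (g : G) :
    no (fx G (A.image (g • ·))) (univ : Finset Ω) = no (fx G A) (univ : Finset Ω) := by
  have h1 := sum_inv_eq (fx G (A.image (g • ·))) (S := (univ : Finset Ω)) fun _ _ _ _ => mem_univ _
  have h2 := sum_inv_eq (fx G A) (S := (univ : Finset Ω)) fun _ _ _ _ => mem_univ _
  have h3 : ∀ ω : Ω, d (fx G (A.image (g • ·))) (g • ω) = d (fx G A) ω := fun ω => by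
    rw [← card_fo, ← card_fo, ← card_image_of_injective (fo (fx G A) ω) (MulAction.injective g)]
    congr 1
    ext a
    simp only [mem_fo, mem_image, mem_fx, forall_exists_index, and_imp, forall_apply_eq_imp_iff₂]
    constructor
    · rintro ⟨l, hl, rfl⟩
      exact ⟨_, ⟨g⁻¹ * l * g, fun a ha => by rw [mul_smul, mul_smul, hl a ha, inv_smul_smul], rfl⟩,
        by simp [mul_smul]⟩
    · rintro ⟨_, ⟨l, hl, rfl⟩, rfl⟩
      exact ⟨g * l * g⁻¹, fun a ha => by simp [mul_smul, hl a ha], by simp [mul_smul]⟩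
  rw [← Equiv.sum_comp (MulAction.toPerm g)] at h1
  simp only [MulAction.toPerm_apply, h3] at h1
  exact_mod_cast h1.symm.trans h2

theorem no_fo (L : Subgroup G) (a : Ω) : no L (fo L a) ≤ 1 := by
  classical
  refine card_le_one.2 fun x hx y hy => ?_
  obtain ⟨x, hx', rfl⟩ := mem_image.1 hx
  obtain ⟨y, hy', rfl⟩ := mem_image.1 hy
  exact (ob_eq.2 (mem_fo.1 hx')).trans (ob_eq.2 (mem_fo.1 hy')).symm

theorem fo_inv (L : Subgroup G) (b : Ω) : ∀ l ∈ L, ∀ a ∈ fo L b, l • a ∈ fo L b :=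
  fun l hl _ ha => let ⟨m, hm, h⟩ := mem_fo.1 ha
    mem_fo.2 ⟨l * m, mul_mem hl hm, by rw [mul_smul, h]⟩

theorem no_insert {M : Subgroup G} {a : Ω} (ha : ∀ m ∈ M, m • a = a) {S : Finset Ω} (h : a ∉ S) :
    no M (insert a S) = no M S + 1 := by
  classical
  unfold no
  rw [image_insert]
  convert card_insert_of_notMem _
  intro h1
  obtain ⟨b, hb, h1⟩ := mem_image.1 h1
  obtain ⟨m, hm, rfl⟩ := ob_eq.1 h1
  exact h (ha m hm ▸ hb)

theorem no_union (M : Subgroup G) (S T : Finset Ω) : no M (S ∪ T) ≤ no M S + no M T := by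
  classical
  unfold no
  rw [image_union]
  convert card_union_le _ _

theorem no_disj {M K : Subgroup G} (h : M ≤ K) {S T : Finset Ω}
    (hd : ∀ s ∈ S, ∀ t ∈ T, orbit K s ≠ orbit K t) : no M (S ∪ T) = no M S + no M T := by
  classical
  unfold no
  rw [image_union]
  convert card_union_of_disjoint (disjoint_left.2 fun O h1 h2 => ?_)
  obtain ⟨s, hs, rfl⟩ := mem_image.1 h1
  obtain ⟨t, ht, h2⟩ := mem_image.1 h2
  obtain ⟨m, hm, h3⟩ := ob_eq.1 h2.symm
  exact hd s hs t ht (ob_eq.2 ⟨m, h hm, h3⟩)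

/-- `r` choices avoiding the fixed point cost `r` new orbits. -/
theorem gain (K : Subgroup G) (a c : Ω) {Γ : Finset Ω} (hΓ : Γ ⊆ fo K c) (ha : a ∉ Γ)
    (h : a ∈ fo K c ∨ 2 ≤ no (st K a) Γ) :
    no K (univ : Finset Ω) + no (st K a) Γ ≤ no (st K a) (univ : Finset Ω) := by
  have hf : ∀ m ∈ st K a, m • a = a := fun m hm => hm.2
  by_cases hc : a ∈ fo K c
  · have h1 := no_add (st_le K a) (fo_inv K c)
    have h2 := no_fo K c
    have h3 := no_mono (st K a) (insert_subset hc hΓ)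
    rw [no_insert hf ha] at h3
    omega
  replace h := h.resolve_left hc
  obtain ⟨k, hk, hka⟩ : ∃ k ∈ K, k • a ≠ a := by
    by_contra! h1
    have h2 : st K a = K := le_antisymm inf_le_left fun k hk => ⟨hk, h1 k hk⟩
    rw [h2] at h
    have := (no_mono K hΓ).trans (no_fo K c)
    omega
  have h1 := no_add (st_le K a) (S := fo K c ∪ fo K a) fun l hl x hx =>
    mem_union.2 ((mem_union.1 hx).imp (fo_inv K c l hl x) (fo_inv K a l hl x))
  have h2 := no_union K (fo K c) (fo K a)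
  have h3 := no_fo K c
  have h4 := no_fo K a
  have h5 := no_disj (st_le K a) (S := fo K c) (T := fo K a) fun s hs t ht h5 =>
    hc (mem_fo.2 (ob_eq.1 ((ob_eq.2 (mem_fo.1 ht)).symm.trans
      (h5.symm.trans (ob_eq.2 (mem_fo.1 hs))))))
  have h6 := no_mono (st K a) hΓ
  have h7 := no_mono (st K a) (show insert a {k • a} ⊆ fo K a from
    insert_subset (mem_fo.2 ⟨1, one_mem _, one_smul _ _⟩)
      (singleton_subset_iff.2 (mem_fo.2 ⟨k, hk, rfl⟩)))
  rw [no_insert hf (by simpa using hka.symm)] at h7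
  have h8 : 1 ≤ no (st K a) {k • a} := by
    classical
    exact card_pos.2 ⟨_, mem_image_of_mem _ (mem_singleton_self _)⟩
  omega

variable [FaithfulSMul G Ω]

/-- The open state. -/
def Op (G : Type*) (Ω : Type*) [Group G] [MulAction G Ω] [Fintype Ω] [DecidableEq Ω] (m : ℕ) :
    Prop :=
  ∀ (A : Finset Ω) (g : G) (β a : Ω) (j ε : ℕ) (X : Finset G), Aᶜ.card = m → β ∉ A →
    insert β A = insert a (A.image (g • ·)) → (∀ x ∈ X, ∀ b ∈ A, x • b = g • b) →
    (∀ x ∈ X, SR Ω x) → (∀ x ∈ X, x ^ j • a = β) →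
    (ε = 0 → ∀ x ∈ X, ∀ y ∈ X, ∀ i : ℕ, x ^ i = 1 → y ^ i = 1) → ε ≤ 1 →
    cm (fx G (insert β A)) X ≤ Nat.card (fx G (insert β A)) *
      (Nat.fib (Fintype.card Ω - no (fx G A) (univ : Finset Ω) + 1 + ε) : ℝ)

/-- The closed state. -/
def Cl (G : Type*) (Ω : Type*) [Group G] [MulAction G Ω] [Fintype Ω] [DecidableEq Ω] (m : ℕ) :
    Prop :=
  ∀ (A : Finset Ω) (g : G) (X : Finset G), Aᶜ.card = m → A.image (g • ·) = A →
    (∀ x ∈ X, ∀ b ∈ A, x • b = g • b) → (∀ x ∈ X, SR Ω x) →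
    (∀ x ∈ X, ∀ y ∈ X, ∀ i : ℕ, x ^ i = 1 → y ^ i = 1) →
    cm (fx G A) X ≤ Nat.card (fx G A) *
      (Nat.fib (Fintype.card Ω - no (fx G A) (univ : Finset Ω) + 1) : ℝ)

theorem cz_le (L : Subgroup G) (x : G) : cz L x ≤ Nat.card L :=
  Subgroup.card_le_of_le inf_le_left

theorem cl_zero : Cl G Ω 0 := by
  intro A g X hA _ hX _ _
  obtain rfl : A = univ := by simpa using hA
  have h1 : X ⊆ {g} := fun x hx =>
    mem_singleton.2 (eq_of_smul_eq_smul fun a : Ω => hX x hx a (mem_univ a))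
  refine (sum_le_sum_of_subset_of_nonneg h1 fun _ _ _ => Nat.cast_nonneg _).trans ?_
  rw [sum_singleton]
  exact_mod_cast (cz_le _ g).trans (Nat.le_mul_of_pos_right _ (Nat.fib_pos.2 (Nat.succ_pos _)))

theorem cl_of_op {m : ℕ} (h : Op G Ω (m + 1)) : Cl G Ω (m + 1) := by
  intro A g X hA hg hX hS hZ
  obtain ⟨b, hb⟩ := card_pos.1 (show 0 < Aᶜ.card by omega)
  have := h A g b b 0 0 X hA (mem_compl.1 hb) (by rw [hg]) hX hS (by simp) (fun _ => hZ) zero_le_one
  rw [← st_fx] at this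
  exact cm_of_st this

theorem pow_agree {A : Finset Ω} {x y : G} (h : ∀ b ∈ A, x • b = y • b) (hy : ∀ b ∈ A, y • b ∈ A)
    (i : ℕ) : ∀ b ∈ A, x ^ i • b = y ^ i • b ∧ y ^ i • b ∈ A := by
  induction i with
  | zero => simp
  | succ i ih =>
    intro b hb
    rw [pow_succ', pow_succ', mul_smul, mul_smul, (ih b hb).1]
    exact ⟨h _ (ih b hb).2, hy _ (ih b hb).2⟩

theorem op_succ {m : ℕ} (ho : Op G Ω m) (hc : Cl G Ω m) : Op G Ω (m + 1) := by
  intro A g β a j ε X hA hβ hg hX hS hj hZ hε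
  have hA' : (insert β A)ᶜ.card = m := by
    rw [compl_insert, card_erase_of_mem (mem_compl.2 hβ), hA]; rfl
  have ha : a ∉ A.image (g • ·) := fun h => by
    have h1 := congrArg card hg
    rw [insert_eq_of_mem h, card_insert_of_notMem hβ] at h1
    have := card_image_le (s := A) (f := (g • ·))
    omega
  set M := fx G (insert β A) with hM
  set K := fx G (A.image (g • ·))
  have hMK : M = st K a := by rw [st_fx, ← hg]
  have hK : no K (univ : Finset Ω) = _ := no_conj A g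
  set Γ := X.image (· • β)
  have hΓ : Γ ⊆ fo K (g • β) := fun γ hγ => by
    obtain ⟨x, hx, rfl⟩ := mem_image.1 hγ
    refine mem_fo.2 ⟨x * g⁻¹, mem_fx.2 fun b hb => ?_, by simp [mul_smul]⟩
    obtain ⟨b, hb', rfl⟩ := mem_image.1 hb
    rw [mul_smul, inv_smul_smul, hX x hx b hb']
  have him : ∀ x ∈ X, (insert β A).image (x • ·) = insert (x • β) (A.image (g • ·)) :=
    fun x hx => by rw [image_insert, image_congr fun b hb => hX x hx b hb]
  have hag : ∀ γ, ∀ x ∈ X.filter (· • β = γ), ∀ y ∈ X.filter (· • β = γ), ∀ b ∈ insert β A,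
      y • b = x • b := fun γ x hx y hy b hb => by
    rw [mem_filter] at hx hy
    rcases mem_insert.1 hb with rfl | hb
    · rw [hx.2, hy.2]
    · rw [hX x hx.1 b hb, hX y hy.1 b hb]
  obtain ⟨n, hn'⟩ : ∃ n, n = Fintype.card Ω - no M (univ : Finset Ω) := ⟨_, rfl⟩
  have hn : no M (univ : Finset Ω) ≤ Fintype.card Ω := no_le M univ
  -- the non-closing options
  have h1 : ∀ γ ∈ Γ.erase a, cm (st M γ) (X.filter (· • β = γ)) ≤
      Nat.card M * (1 / d M γ) * (Nat.fib (n + 1 + ε) : ℝ) := fun γ hγ => by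
    obtain ⟨hγa, hγ⟩ := mem_erase.1 hγ
    obtain ⟨x, hx, rfl⟩ := mem_image.1 hγ
    have hx' : x ∈ X.filter (· • β = x • β) := mem_filter.2 ⟨hx, rfl⟩
    rw [← st_eq, hn', hM, st_fx]
    refine ho (insert β A) x (x • β) a (j + 1) ε _ hA' (fun h => ?_) ?_ (hag _ x hx')
      (fun y hy => hS y (mem_filter.1 hy).1) (fun y hy => ?_)
      (fun h y hy z hz => hZ h y (mem_filter.1 hy).1 z (mem_filter.1 hz).1) hε
    · rw [hg, mem_insert] at h
      obtain ⟨b, hb, h⟩ := mem_image.1 (h.resolve_left hγa)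
      rw [← hX x hx b hb, smul_left_cancel_iff] at h
      exact hβ (h ▸ hb)
    · rw [him x hx, hg, insert_comm]
    · rw [pow_succ', mul_smul, hj y (mem_filter.1 hy).1, (mem_filter.1 hy).2]
  have h2 : ∑ γ ∈ Γ.erase a, cm (st M γ) (X.filter (· • β = γ)) ≤
      Nat.card M * ((no M (Γ.erase a) * Nat.fib (n + 1 + ε) : ℕ) : ℝ) := by
    refine (sum_le_sum h1).trans ?_
    rw [← sum_mul, ← mul_sum, mul_assoc, Nat.cast_mul]
    exact mul_le_mul_of_nonneg_left (mul_le_mul_of_nonneg_right (sum_inv_le _ _)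
      (Nat.cast_nonneg _)) (Nat.cast_nonneg _)
  have hle : no K (univ : Finset Ω) ≤ no M (univ : Finset Ω) := by
    have := no_add (show M ≤ K from hMK ▸ inf_le_left) (S := (∅ : Finset Ω)) (by simp)
    simpa [no] using this
  rw [cm_dec (fun l hl => mem_fx.1 hl β (mem_insert_self _ _)) X
    (Γ := Γ) fun x hx => mem_image_of_mem _ hx, ← hK, ← hM]
  by_cases haΓ : a ∈ Γ
  · obtain ⟨x, hx, hxa⟩ := mem_image.1 haΓ
    have hx' : x ∈ X.filter (· • β = a) := mem_filter.2 ⟨hx, hxa⟩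
    have hxA : (insert β A).image (x • ·) = insert β A := by rw [him x hx, hxa, hg]
    have haA : a ∈ insert β A := hg ▸ mem_insert_self _ _
    have h3 := hc (insert β A) x (X.filter (· • β = a)) hA' hxA (hag _ x hx')
      (fun y hy => hS y (mem_filter.1 hy).1) fun y hy z hz i hi =>
        hS z (mem_filter.1 hz).1 i a (by
          rw [(pow_agree (hag a x hx' z hz) (fun b hb => hxA ▸ mem_image_of_mem _ hb) i a haA).1,
            ← (pow_agree (hag a x hx' y hy) (fun b hb => hxA ▸ mem_image_of_mem _ hb) i a haA).1,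
            hi, one_smul])
    have h4 : st M a = M := by rw [hM, st_fx, insert_eq_of_mem haA]
    have h5 := gain K a (g • β) ((erase_subset a Γ).trans hΓ) (notMem_erase a Γ) (.inl (hΓ haΓ))
    rw [← hMK] at h5
    rw [← hM, ← hn'] at h3
    rw [← add_sum_erase _ _ haΓ, h4]
    refine (add_le_add h3 h2).trans ?_
    rw [← mul_add]
    refine mul_le_mul_of_nonneg_left ?_ (Nat.cast_nonneg _)
    norm_cast
    obtain rfl | rfl : ε = 0 ∨ ε = 1 := by omega
    · have h6 : Γ.erase a = ∅ := eq_empty_of_forall_notMem fun γ hγ => by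
        obtain ⟨hγa, hγ⟩ := mem_erase.1 hγ
        obtain ⟨y, hy, rfl⟩ := mem_image.1 hγ
        have h6 := hZ rfl x hx y hy (j + 1) (hS x hx _ a (by
          rw [pow_succ', mul_smul, hj x hx, hxa]))
        apply hγa
        rw [← hj y hy, ← mul_smul, ← pow_succ', h6, one_smul]
      rw [h6, show no M (∅ : Finset Ω) = 0 by simp [no], zero_mul, add_zero]
      exact Nat.fib_mono (by omega)
    · exact (fib2 n _).trans (Nat.fib_mono (by omega))
  · rw [erase_eq_of_notMem haΓ] at h2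
    refine h2.trans (mul_le_mul_of_nonneg_left ?_ (Nat.cast_nonneg _))
    norm_cast
    by_cases h3 : 2 ≤ no M Γ
    · have h5 := gain K a (g • β) hΓ haΓ (.inr (hMK ▸ h3))
      rw [← hMK] at h5
      rw [add_right_comm]
      exact (fib1 _ _).trans (Nat.fib_mono (by omega))
    · refine (Nat.mul_le_mul_right _ (show no M Γ ≤ 1 by omega)).trans ?_
      rw [one_mul]
      exact Nat.fib_mono (by omega)

theorem op_cl (m : ℕ) : Op G Ω m ∧ Cl G Ω m := by
  induction m with
  | zero =>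
    refine ⟨fun A g β a j ε X hA hβ => ?_, cl_zero⟩
    obtain rfl : A = univ := by simpa using hA
    exact absurd (mem_univ β) hβ
  | succ m ih => exact ⟨op_succ ih.1 ih.2, cl_of_op (op_succ ih.1 ih.2)⟩

/-- The number of `G_α`-classes of semiregular elements. -/
theorem sr_bound (α : Ω) (X : Finset G) (hS : ∀ x ∈ X, SR Ω x) :
    cm (st ⊤ α) X ≤ Nat.card (st (⊤ : Subgroup G) α) *
      ((1 + (no (st (⊤ : Subgroup G) α) (univ : Finset Ω) - 1) *
        Nat.fib (Fintype.card Ω - no (st (⊤ : Subgroup G) α) (univ : Finset Ω) + 2) : ℕ) : ℝ) := by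
  have hM : st (⊤ : Subgroup G) α = fx G {α} := by
    ext g; simp [mem_st, mem_fx]
  rw [hM]
  set M := fx G {α} with hM
  have hf : ∀ l ∈ M, l • α = α := fun l hl => mem_fx.1 hl α (mem_singleton_self _)
  rw [cm_dec hf X (Γ := univ) fun _ _ => mem_univ _, ← add_sum_erase _ _ (mem_univ α)]
  have h1 : cm (st M α) (X.filter (· • α = α)) ≤ Nat.card M := by
    have h1 : X.filter (· • α = α) ⊆ {1} := fun x hx => mem_singleton.2 (by
      simpa using hS x (mem_filter.1 hx).1 1 α (by simpa using (mem_filter.1 hx).2))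
    refine (sum_le_sum_of_subset_of_nonneg h1 fun _ _ _ => Nat.cast_nonneg _).trans ?_
    rw [sum_singleton]
    exact_mod_cast (cz_le _ _).trans (Subgroup.card_le_of_le inf_le_left)
  have h2 : ∀ γ ∈ univ.erase α, cm (st M γ) (X.filter (· • α = γ)) ≤ Nat.card M * (1 / d M γ) *
      (Nat.fib (Fintype.card Ω - no M (univ : Finset Ω) + 2) : ℝ) := fun γ hγ => by
    rw [← st_eq]
    rcases (X.filter (· • α = γ)).eq_empty_or_nonempty with h | ⟨x, hx⟩
    · rw [h]; exact mul_nonneg (Nat.cast_nonneg _) (Nat.cast_nonneg _)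
    rw [hM, st_fx]
    have hx' := (mem_filter.1 hx).2
    refine (op_cl _).1 {α} x γ α 1 1 _ rfl (by simpa using (mem_erase.1 hγ).1) ?_ ?_
      (fun y hy => hS y (mem_filter.1 hy).1) (fun y hy => by simpa using (mem_filter.1 hy).2)
      (by simp) le_rfl
    · rw [image_singleton, hx', pair_comm]
    · intro y hy b hb
      rw [mem_singleton.1 hb, hx', (mem_filter.1 hy).2]
  have h3 := no_insert hf (notMem_erase α univ)
  rw [insert_erase (mem_univ α)] at h3
  refine (add_le_add h1 (sum_le_sum h2)).trans ?_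
  rw [← sum_mul, ← mul_sum, mul_assoc, Nat.cast_add, Nat.cast_mul, mul_add, Nat.cast_one, mul_one,
    h3, Nat.add_sub_cancel, ← h3]
  exact add_le_add le_rfl (mul_le_mul_of_nonneg_left (mul_le_mul_of_nonneg_right (sum_inv_le _ _)
      (Nat.cast_nonneg _)) (Nat.cast_nonneg _))

end CF.KD
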