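import Cfsg.Agent.Perm.KD2

/-!
# A permutation group of degree `n ≥ 3` has at most `√3 ^ (n - 1)` conjugacy classes
-/

set_option linter.unusedSectionVars false

namespace CF.KD

open Finset MulAction

universe u

/-- `ex x = √3 ^ x`. -/
noncomputable def ex (x : ℝ) : ℝ := (3 : ℝ) ^ (x / 2)

theorem ex_pos (x : ℝ) : 0 < ex x := Real.rpow_pos_of_pos (by norm_num) _

theorem ex_add (x y : ℝ) : ex (x + y) = ex x * ex y := by
  rw [ex, add_div, Real.rpow_add (by norm_num)]; rfl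

theorem ex_mono {x y : ℝ} (h : x ≤ y) : ex x ≤ ex y :=
  Real.rpow_le_rpow_of_exponent_le (by norm_num) (by linarith)

theorem ex_zero : ex 0 = 1 := by simp [ex]

theorem ex_one : ex 1 = √3 := by rw [ex, Real.sqrt_eq_rpow]

theorem ex_mul (x : ℝ) (n : ℕ) : ex (n * x) = ex x ^ n := by
  induction n with
  | zero => simp [ex_zero]
  | succ n ih => rw [Nat.cast_succ, add_mul, one_mul, ex_add, ih, pow_succ]

theorem ex_nat (n : ℕ) : ex n = √3 ^ n := by rw [← ex_one, ← ex_mul, mul_one]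

/-- `log₃ 2`. -/
noncomputable def ka : ℝ := Real.logb 3 2

theorem ex_ka : ex (2 * ka) = 2 := by
  rw [ex, mul_div_cancel_left₀ _ two_ne_zero, ka, Real.rpow_logb (by norm_num) (by norm_num)
    (by norm_num)]

theorem s3 : 1.732 < √3 ∧ √3 < 1.7321 :=
  ⟨Real.lt_sqrt_of_sq_lt (by norm_num), (Real.sqrt_lt' (by norm_num)).2 (by norm_num)⟩

theorem s3_sq : √3 * √3 = 3 := Real.mul_self_sqrt (by norm_num)

theorem ka_bd : 0 ≤ ka ∧ ka ≤ 2 / 3 := by
  refine ⟨Real.logb_nonneg (by norm_num) (by norm_num), ?_⟩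
  rw [ka, Real.logb_le_iff_le_rpow (by norm_num) (by norm_num)]
  refine le_of_pow_le_pow_left₀ three_ne_zero (by positivity) ?_
  rw [← Real.rpow_natCast (3 ^ (2 / 3 : ℝ)), ← Real.rpow_mul (by norm_num)]
  norm_num

/-- The weight exponent of a point in an orbit of length `d`. -/
noncomputable def mu (d : ℕ) : ℝ := if d = 2 then ka else 1 - 1 / d

theorem mu_one : mu 1 = 0 := by simp [mu]

theorem mu_mono {a b : ℕ} (ha : 0 < a) (h : a ≤ b) : mu a ≤ mu b := by
  have hk := ka_bd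
  have h1 : (1 : ℝ) / b ≤ 1 / a :=
    one_div_le_one_div_of_le (by exact_mod_cast ha) (by exact_mod_cast h)
  unfold mu
  split_ifs with h2 h3 h3
  · rfl
  · have : (1 : ℝ) / b ≤ 1 / 3 :=
      one_div_le_one_div_of_le (by norm_num) (by exact_mod_cast (by omega : 3 ≤ b))
    linarith
  · obtain rfl : a = 1 := by omega
    simpa using hk.1
  · linarith

theorem mu_nonneg {a : ℕ} (ha : 0 < a) : 0 ≤ mu a := mu_one ▸ mu_mono one_pos ha

/-- `1 / (√3 - 1)`. -/
noncomputable def rho : ℝ := (√3 + 1) / 2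

/-- The extra factor for the marked orbit. -/
noncomputable def rr (d : ℕ) : ℝ := if d ≤ 2 then 1 else rho

theorem one_le_rho : 1 ≤ rho := by have := s3; unfold rho; linarith

theorem one_le_rr (d : ℕ) : 1 ≤ rr d := by unfold rr; split_ifs; exacts [le_rfl, one_le_rho]

/-- The numerical function of the suborbit type. -/
noncomputable def gg (b e : ℕ) : ℝ := (1 + b + e * rho) * (2 / 3) ^ b * (√3 / 3) ^ e

theorem gg_b {b e : ℕ} (h : 2 ≤ 1 + b + e * rho) : gg (b + 1) e ≤ gg b e := by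
  unfold gg
  refine mul_le_mul_of_nonneg_right ?_ (by positivity)
  rw [pow_succ', ← mul_assoc]
  refine mul_le_mul_of_nonneg_right ?_ (by positivity)
  push_cast
  linarith

theorem gg_e {b e : ℕ} (h : 2 ≤ 1 + b + e * rho) : gg b (e + 1) ≤ gg b e := by
  unfold gg
  rw [pow_succ', ← mul_assoc, mul_right_comm _ _ (√3 / 3)]
  refine mul_le_mul_of_nonneg_right (mul_le_mul_of_nonneg_right ?_ (by positivity)) (by positivity)
  push_cast
  have h1 := s3
  have h2 := s3_sq
  have : rho * (√3 / 3) = (3 + √3) / 6 := by unfold rho; linarith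
  nlinarith

theorem gg_le {b e : ℕ} (h : 1 ≤ b ∨ 2 ≤ e) : gg b e ≤ 4 / 3 := by
  have h0 := one_le_rho
  have h1 : ∀ b e : ℕ, 1 ≤ b ∨ 1 ≤ e → 2 ≤ 1 + (b : ℝ) + e * rho := by
    rintro b e (h | h)
    · have : (1 : ℝ) ≤ b := by exact_mod_cast h
      have : (0 : ℝ) ≤ e * rho := by positivity
      linarith
    · have : (1 : ℝ) ≤ e := by exact_mod_cast h
      have : (0 : ℝ) ≤ b := by positivity
      nlinarith
  by_cases hb : 1 ≤ b
  · clear h
    induction e with
    | zero =>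
      induction b, hb using Nat.le_induction with
      | base => norm_num [gg]
      | succ b hb ih => exact (gg_b (h1 _ _ (.inl hb))).trans ih
    | succ e ih => exact (gg_e (h1 _ _ (.inl hb))).trans ih
  obtain rfl : b = 0 := by omega
  replace h := h.resolve_left hb
  induction e, h using Nat.le_induction with
  | base =>
    have := s3
    have := s3_sq
    simp only [gg, rho, sq]
    norm_num
    nlinarith
  | succ e he ih => exact (gg_e (h1 _ _ (.inr (by omega)))).trans ih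

theorem gg_le' (b e : ℕ) : gg b e ≤ rho := by
  have h1 := s3
  have h2 := s3_sq
  by_cases h : 1 ≤ b ∨ 2 ≤ e
  · exact (gg_le h).trans (by unfold rho; linarith)
  obtain rfl : b = 0 := by omega
  obtain rfl | rfl : e = 0 ∨ e = 1 := by omega
  · simpa [gg] using one_le_rho
  · simp only [gg, rho]
    norm_num
    nlinarith

/-- The bound for transitive groups of degree `m`. -/
def Tr (m : ℕ) : Prop := ∀ (Ω : Type u) [Fintype Ω] (Q : Subgroup (Equiv.Perm Ω)),
  IsPretransitive Q Ω → Fintype.card Ω = m → 0 < m → (Nat.card (ConjClasses Q) : ℝ) ≤ ex (m * mu m)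

theorem cc_equiv {A B : Type*} [Group A] [Group B] [Finite A] [Finite B] (e : A ≃* B) :
    Nat.card (ConjClasses A) = Nat.card (ConjClasses B) := by
  have h : ∀ {A B : Type _} [Group A] [Group B] [Finite A] (e : A ≃* B),
    Nat.card (ConjClasses B) ≤ Nat.card (ConjClasses A) := fun e =>
      Nat.card_le_card_of_surjective _ (ConjClasses.map_surjective (f := e.toMonoidHom) e.surjective)
  exact le_antisymm (Nat.card_le_card_of_surjective _
    (ConjClasses.map_surjective (f := e.symm.toMonoidHom) e.symm.surjective)) (h e)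

variable {G : Type*} {Ω : Type u} [Group G] [MulAction G Ω] [Fintype Ω] [Fintype G] [DecidableEq Ω]

/-- The weight exponent of a set of points. -/
noncomputable def ee (L : Subgroup G) (S : Finset Ω) : ℝ := ∑ ω ∈ S, mu (d L ω)

theorem ee_mono {L M : Subgroup G} (h : M ≤ L) (S : Finset Ω) : ee M S ≤ ee L S :=
  sum_le_sum fun ω _ => mu_mono (d_pos M ω) (d_mono h ω)

theorem ee_fo (L : Subgroup G) (ω : Ω) : ee L (fo L ω) = d L ω * mu (d L ω) := by
  rw [ee, sum_congr rfl fun b hb => by rw [d_eq hb], sum_const, nsmul_eq_mul, card_fo]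

theorem card_lt {L M : Subgroup G} (h : M ≤ L) {l : G} (hl : l ∈ L) (h1 : l ∉ M) :
    Nat.card M < Nat.card L :=
  lt_of_le_of_ne (Subgroup.card_le_of_le h) fun h2 =>
    h1 (Subgroup.eq_of_le_of_card_ge h h2.ge ▸ hl)

variable [FaithfulSMul G Ω]

theorem kW {n : ℕ} (H : ∀ m < n, Tr.{u} m) (L : Subgroup G) (hL : ∀ ω : Ω, d L ω < n) :
    (Nat.card (ConjClasses L) : ℝ) ≤ ex (ee L (univ : Finset Ω)) := by
  induction hc : Nat.card L using Nat.strong_induction_on generalizing L with | _ c ih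
  by_cases h : ∀ l ∈ L, ∀ ω : Ω, l • ω = ω
  · have : Subsingleton L := ⟨fun a b => Subtype.ext (eq_of_smul_eq_smul fun ω : Ω => by
      rw [h a a.2, h b b.2])⟩
    have h1 : Nat.card (ConjClasses L) ≤ 1 := (Nat.card_le_card_of_surjective _
      ConjClasses.mk_surjective).trans (Finite.card_le_one_iff_subsingleton.2 this)
    refine le_trans (by exact_mod_cast h1) (ex_zero.ge.trans (ex_mono ?_))
    exact sum_nonneg fun ω _ => mu_nonneg (d_pos L ω)
  push Not at h
  obtain ⟨l, hl, ω, hω⟩ := h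
  set φ := toPermHom L (orbit L ω)
  set N := L ⊓ fx G (fo L ω)
  have hN : N ≤ L := inf_le_left
  have hker : φ.ker = N.subgroupOf L := by
    ext x
    simp only [MonoidHom.mem_ker, Subgroup.mem_subgroupOf, N, Subgroup.mem_inf, SetLike.coe_mem,
      true_and, mem_fx, Equiv.ext_iff, φ, toPermHom_apply, toPerm_apply, Equiv.Perm.coe_one, id,
      Subtype.forall, mem_fo, ← mem_ob]
    exact forall₂_congr fun a ha => Subtype.ext_iff
  have h1 := Cfsg.Agent.S4201.result φ.ker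
  rw [cc_equiv (QuotientGroup.quotientKerEquivRange φ),
    cc_equiv ((MulEquiv.subgroupCongr hker).trans (Subgroup.subgroupOfEquivOfLe hN))] at h1
  have := Fintype.ofFinite (orbit L ω)
  have h2 := H _ (hL ω) (orbit L ω) φ.range ⟨fun a b => by
    obtain ⟨x, hx⟩ := exists_smul_eq L a b
    exact ⟨⟨φ x, x, rfl⟩, hx⟩⟩ Nat.card_eq_fintype_card.symm (d_pos L ω)
  have h3 := ih _ (hc ▸ card_lt hN hl fun h => hω (mem_fx.1 h.2 ω
    (mem_fo.2 ⟨1, one_mem _, one_smul _ _⟩))) N (fun a => (d_mono hN a).trans_lt (hL a)) rfl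
  have h4 : ee N (fo L ω) = 0 := sum_eq_zero fun a ha => by
    rw [d_one (L := N) fun x hx => mem_fx.1 hx.2 a ha, mu_one]
  have h5 := ee_mono hN (fo L ω)ᶜ
  rw [ee, ← sum_add_sum_compl (fo L ω)] at h3 ⊢
  rw [← ee, ← ee] at h3 ⊢
  rw [h4, zero_add] at h3
  rw [ex_add, ee_fo, mul_comm]
  exact (by exact_mod_cast h1 : (_ : ℝ) ≤ _ * _).trans
    (mul_le_mul (h3.trans (ex_mono h5)) h2 (Nat.cast_nonneg _) (ex_pos _).le)

theorem t_step (L : Subgroup G) (β : Ω) {w : ℝ}
    (h : ∀ γ : Ω, cm (st (st L β) γ) (fs (st L β)) ≤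
      Nat.card (st (st L β) γ) * (rr (d (st L β) γ) * w)) :
    cm (st L β) (fs L) ≤ Nat.card (st L β) *
      ((∑ γ ∈ fo L β, rr (d (st L β) γ) * (1 / d (st L β) γ)) * w) := by
  rw [cm_dec (M := st L β) (fun l hl => hl.2) (fs L) (Γ := fo L β) fun x hx => mem_fo.2 ⟨x, mem_fs.1 hx, rfl⟩,
    sum_mul, mul_sum]
  refine sum_le_sum fun γ _ => ((cm_coset _ (st L β) fun x hx y hy => ?_).trans (h γ)).trans_eq ?_
  · rw [mem_filter, mem_fs] at hx hy
    exact mem_st.2 ⟨mul_mem (inv_mem hx.1) hy.1, by rw [mul_smul, hy.2, ← hx.2, inv_smul_smul]⟩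
  · rw [st_eq]; ring

theorem num (L : Subgroup G) (β : Ω) : ∃ b e : ℕ, no (st L β) (fo L β) = 1 + b + e ∧
    (∑ γ ∈ fo L β, rr (d (st L β) γ) * (1 / d (st L β) γ)) * ex (ee (st L β) (fo L β)) ≤
      gg b e * ex (d L β - 1) := by
  set H := st L β
  have hf : ∀ l ∈ H, l • β = β := fun l hl => hl.2
  have hβ : β ∈ fo L β := mem_fo.2 ⟨1, one_mem _, one_smul _ _⟩
  have hd : ∀ l ∈ H, ∀ a : Ω, d H (l • a) = d H a := fun l hl a => d_eq (mem_fo.2 ⟨l, hl, rfl⟩)
  have hi : ∀ l ∈ H, ∀ a ∈ (fo L β).erase β, l • a ∈ (fo L β).erase β := fun l hl a ha =>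
    mem_erase.2 ⟨fun h => (mem_erase.1 ha).1 (by rwa [← hf l hl, smul_left_cancel_iff] at h),
      fo_inv L β l hl.1 a (mem_erase.1 ha).2⟩
  set S := ((fo L β).erase β).filter (d H · = 2)
  set T := ((fo L β).erase β).filter (¬ d H · = 2)
  have h1 := sum_inv_eq H (S := S) fun l hl a ha =>
    mem_filter.2 ⟨hi l hl a (mem_filter.1 ha).1, hd l hl a ▸ (mem_filter.1 ha).2⟩
  have h2 := sum_inv_eq H (S := T) fun l hl a ha =>
    mem_filter.2 ⟨hi l hl a (mem_filter.1 ha).1, hd l hl a ▸ (mem_filter.1 ha).2⟩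
  have h3 : ∀ f : Ω → ℝ, ∑ γ ∈ fo L β, f γ = f β + (∑ γ ∈ S, f γ + ∑ γ ∈ T, f γ) := fun f => by
    rw [sum_filter_add_sum_filter_not, add_sum_erase _ _ hβ]
  have h4 := sum_inv_eq H (S := fo L β) fun l hl => fo_inv L β l hl.1
  have h5 := d_one hf
  have hS : ∀ f : ℕ → ℝ, ∑ γ ∈ S, f (d H γ) = 2 * no H S * f 2 := fun f => by
    rw [← h1, mul_sum, sum_mul]
    exact sum_congr rfl fun γ hγ => by rw [(mem_filter.1 hγ).2]; norm_num
  rw [h3, h1, h2, h5] at h4
  refine ⟨no H S, no H T, by exact_mod_cast (by push_cast; linarith : (no H (fo L β) : ℝ) =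
    (1 + no H S + no H T : ℕ)), ?_⟩
  have h6 : ∑ γ ∈ fo L β, rr (d H γ) * (1 / d H γ) ≤ 1 + no H S + no H T * rho := by
    rw [h3, h5, hS fun d => rr d * (1 / d), ← h2, sum_mul]
    have : ∑ γ ∈ T, rr (d H γ) * (1 / d H γ) ≤ ∑ γ ∈ T, 1 / (d H γ : ℝ) * rho :=
      sum_le_sum fun γ _ => by
        rw [mul_comm]
        refine mul_le_mul_of_nonneg_left ?_ (by positivity)
        unfold rr; split_ifs; exacts [one_le_rho, le_rfl]
    simp only [rr, one_le_two, le_refl, if_true] at this ⊢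
    push_cast
    linarith
  have h7 := h3 fun _ => 1
  rw [hS fun _ => 1, sum_const, card_fo, nsmul_eq_mul] at h7
  have h8 : ee H (fo L β) = (d L β - 1) + no H S * (2 * ka + -1 + -1) + no H T * -1 := by
    have : ∑ γ ∈ T, mu (d H γ) = ∑ γ ∈ T, (1 : ℝ) - no H T := by
      rw [← h2, ← sum_sub_distrib]
      exact sum_congr rfl fun γ hγ => if_neg (mem_filter.1 hγ).2
    rw [ee, h3, h5, mu_one, hS, this, show mu 2 = ka from if_pos rfl]
    linarith
  have h9 : ex (-1) = √3 / 3 := by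
    have h9 := ex_add 1 (-1)
    rw [add_neg_cancel, ex_zero, ex_one] at h9
    have := s3_sq
    linear_combination (-√3 / 3) * h9 - ex (-1) / 3 * this
  rw [h8, ex_add, ex_add, ex_mul, ex_mul, ex_add, ex_add, ex_ka, h9,
    show 2 * (√3 / 3) * (√3 / 3) = 2 / 3 by linear_combination 2 / 9 * s3_sq, gg]
  refine (mul_le_mul_of_nonneg_right h6 (by have := ex_pos (d L β - 1); positivity)).trans_eq ?_
  ring

theorem num' (L : Subgroup G) (β : Ω) :
    (∑ γ ∈ fo L β, rr (d (st L β) γ) * (1 / d (st L β) γ)) * ex (ee (st L β) (fo L β)) ≤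
      rr (d L β) * ex (ee L (fo L β)) := by
  rw [ee_fo]
  by_cases h : d L β ≤ 2
  · have h1 : ∀ γ ∈ fo L β, d (st L β) γ = 1 := fun γ hγ => d_one fun l hl => by
      by_contra h1
      have hβ : β ∈ fo L β := mem_fo.2 ⟨1, one_mem _, one_smul _ _⟩
      have h2 : γ ≠ β := fun h => h1 (h ▸ hl.2)
      have h3 : l • γ ≠ β := fun h => h2 (by rwa [← hl.2, smul_left_cancel_iff] at h)
      have := card_le_card (show {l • γ, γ, β} ⊆ fo L β from
        insert_subset (fo_inv L β l hl.1 γ hγ) (insert_subset hγ (singleton_subset_iff.2 hβ)))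
      rw [card_fo, card_eq_three.2 ⟨_, _, _, h1, h3, h2, rfl⟩] at this
      omega
    have h2 : ee (st L β) (fo L β) = 0 := sum_eq_zero fun γ hγ => by rw [h1 γ hγ, mu_one]
    rw [h2, sum_congr rfl fun γ hγ => by rw [h1 γ hγ],
      ex_zero, sum_const, card_fo, rr, rr, if_pos one_le_two, if_pos h]
    have := d_pos L β
    obtain h | h : d L β = 1 ∨ d L β = 2 := by omega
    · simp [h, mu_one, ex_zero]
    · rw [h, show mu 2 = ka from if_pos rfl, Nat.cast_two, ex_ka]; simp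
  obtain ⟨b, e, -, h1⟩ := num L β
  rw [rr, if_neg h, mu, if_neg (by omega), mul_sub, mul_one,
    mul_one_div_cancel (by exact_mod_cast (d_pos L β).ne')]
  exact h1.trans (mul_le_mul_of_nonneg_right (gg_le' b e) (ex_pos _).le)

theorem tW {n : ℕ} (H : ∀ m < n, Tr.{u} m) (L : Subgroup G) (hL : ∀ ω : Ω, d L ω < n) (β : Ω) :
    cm (st L β) (fs L) ≤ Nat.card (st L β) * (rr (d L β) * ex (ee L (univ : Finset Ω))) := by
  induction hc : Nat.card L using Nat.strong_induction_on generalizing L β with | _ c ih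
  by_cases h : ∀ l ∈ L, l • β = β
  · rw [show st L β = L from inf_eq_left.2 h, cm_self]
    exact mul_le_mul_of_nonneg_left ((kW H L hL).trans
      (le_mul_of_one_le_left (ex_pos _).le (one_le_rr _))) (Nat.cast_nonneg _)
  push Not at h
  obtain ⟨l, hl, hβ⟩ := h
  refine (t_step L β fun γ => ih _ (hc ▸ card_lt (st_le L β) hl fun h => hβ h.2) _
    (fun a => (d_mono (st_le L β) a).trans_lt (hL a)) γ rfl).trans
    (mul_le_mul_of_nonneg_left ?_ (Nat.cast_nonneg _))
  rw [ee, ee, ← sum_add_sum_compl (fo L β), ← sum_add_sum_compl (fo L β) fun a => mu (d L a), ex_add,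
    ex_add, ← mul_assoc, ← mul_assoc]
  exact mul_le_mul (num' L β) (ex_mono (ee_mono (st_le L β) _)) (ex_pos _).le
    (mul_nonneg (zero_le_one.trans (one_le_rr _)) (ex_pos _).le)

theorem two_le_no {x : G} (h : ¬ SR Ω x) :
    2 ≤ no (⊤ ⊓ Subgroup.centralizer {x} : Subgroup G) (univ : Finset Ω) := by
  classical
  simp only [SR, not_forall] at h
  obtain ⟨i, a, ha, h⟩ := h
  obtain ⟨b, hb⟩ : ∃ b : Ω, x ^ i • b ≠ b := by
    by_contra! h1
    exact h (eq_of_smul_eq_smul fun b : Ω => by rw [h1, one_smul])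
  refine one_lt_card.2 ⟨_, mem_image_of_mem _ (mem_univ b), _, mem_image_of_mem _ (mem_univ a),
    fun h1 => hb ?_⟩
  obtain ⟨c, hc, rfl⟩ := ob_eq.1 h1
  rw [← mul_smul, ← ((show Commute c x from (mem_cz.1 hc).2).pow_right i).eq, mul_smul, ha]

theorem sum_cz (x : G) : ∑ α : Ω, (cz (st ⊤ α) x : ℝ) =
    cz ⊤ x * no (⊤ ⊓ Subgroup.centralizer {x} : Subgroup G) (univ : Finset Ω) := by
  rw [← sum_inv_eq _ fun _ _ _ _ => mem_univ _, mul_sum]
  refine sum_congr rfl fun α _ => ?_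
  rw [cz, cz, ← st_eq, st, st, inf_right_comm]

open Classical in
theorem two_k [Nonempty Ω] : 2 * cm (⊤ : Subgroup G) univ ≤
    ∑ α : Ω, (cm (st (⊤ : Subgroup G) α) univ + cm (st (⊤ : Subgroup G) α) (univ.filter (SR Ω))) := by
  simp only [cm, sum_add_distrib]
  rw [sum_comm, sum_comm (t := univ.filter (SR Ω)), sum_filter, ← sum_add_distrib, mul_sum]
  refine sum_le_sum fun x _ => ?_
  rw [sum_cz]
  have h0 : (0 : ℝ) ≤ cz ⊤ x := Nat.cast_nonneg _
  split_ifs with h
  · have : (1 : ℝ) ≤ no (⊤ ⊓ Subgroup.centralizer {x} : Subgroup G) (univ : Finset Ω) := by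
      exact_mod_cast card_pos.2 (univ_nonempty.image _)
    nlinarith
  · have : (2 : ℝ) ≤ no (⊤ ⊓ Subgroup.centralizer {x} : Subgroup G) (univ : Finset Ω) := by
      exact_mod_cast two_le_no h
    nlinarith

theorem fib_r {n r : ℕ} (hr : r ≤ n) (h4 : 4 ≤ n) :
    (r - 1) * Nat.fib (n - r + 2) ≤ 2 * Nat.fib (n - 1) := by
  obtain ⟨j, rfl⟩ := Nat.exists_eq_add_of_le hr
  rw [Nat.add_sub_cancel_left]
  rcases r with _ | _ | _ | _ | r
  · simp
  · simp
  · obtain ⟨j, rfl⟩ : ∃ i, j = i + 1 := ⟨j - 1, by omega⟩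
    have := Nat.fib_le_fib_succ (n := j + 1)
    rw [show 0 + 1 + 1 + (j + 1) - 1 = j + 1 + 1 by omega, Nat.fib_add_two]
    omega
  · rw [show 0 + 1 + 1 + 1 + j - 1 = j + 2 by omega]
  · rw [show r + 1 + 1 + 1 + 1 + j - 1 = (j + 1) + (r + 1) + 1 by omega, Nat.fib_add (j + 1),
      show r + 1 + 1 + 1 + 1 - 1 = r + 3 by omega]
    have h1 := le_fib (r + 1)
    have h2 : 0 < Nat.fib (r + 1) := Nat.fib_pos.2 (Nat.succ_pos r)
    have h3 : Nat.fib (j + 2) ≤ 2 * Nat.fib (j + 1) := by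
      have := Nat.fib_le_fib_succ (n := j)
      rw [Nat.fib_add_two]; omega
    rcases r with _ | r
    · rw [show j + 1 + 1 = j + 2 from rfl]; simp; omega
    · nlinarith

theorem fib_big (n : ℕ) : (1 + 2 * Nat.fib (n + 6) : ℝ) ≤ (2 - rho) * √3 ^ (n + 6) ∧
    (1 + 2 * Nat.fib (n + 7) : ℝ) ≤ (2 - rho) * √3 ^ (n + 7) := by
  have h1 := s3
  have h2 := s3_sq
  have h3 : √3 ^ 6 = 27 := by
    rw [show (6 : ℕ) = 2 * 3 by rfl, pow_mul, sq, h2]; norm_num
  induction n with
  | zero =>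
    rw [zero_add, zero_add, pow_succ _ 6, h3, show Nat.fib 6 = 8 by rfl, show Nat.fib 7 = 13 by rfl,
      rho]
    constructor <;> norm_num <;> nlinarith
  | succ n ih =>
    refine ⟨ih.2, ?_⟩
    rw [show n + 1 + 7 = n + 6 + 2 by omega, Nat.fib_add_two, pow_add _ (n + 6) 2, sq, h2]
    rw [pow_succ _ (n + 6)] at ih
    have h4 : 0 ≤ (2 - rho) * √3 ^ (n + 6) := by
      have : rho ≤ 2 := by unfold rho; linarith
      have := sub_nonneg.2 this
      positivity
    have h5 := mul_le_mul_of_nonneg_left (show 1 + √3 ≤ 3 by linarith) h4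
    rw [show n + 6 + 1 = n + 7 from rfl]
    push_cast
    linarith [ih.1, ih.2]

theorem fin_num {n k r b e : ℕ} (hn : 3 ≤ n) (hk : √3 ^ (n - 1) < k) (hr : r = 1 + b + e)
    (hrn : r ≤ n) : gg b e * √3 ^ (n - 1) + ((1 + (r - 1) * Nat.fib (n - r + 2) : ℕ) : ℝ) < 2 * k := by
  have h1 := s3
  have h2 := s3_sq
  have hg := mul_le_mul_of_nonneg_right (gg_le' b e) (by positivity : 0 ≤ √3 ^ (n - 1))
  by_cases h7 : 7 ≤ n
  · obtain ⟨m, rfl⟩ : ∃ m, n = m + 7 := ⟨n - 7, by omega⟩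
    have h3 := (fib_big m).1
    have h4 : (((r - 1) * Nat.fib (m + 7 - r + 2) : ℕ) : ℝ) ≤ (2 * Nat.fib (m + 6) : ℕ) := by
      exact_mod_cast fib_r hrn (by omega)
    rw [show m + 7 - 1 = m + 6 by omega] at hk hg ⊢
    push_cast at h4 ⊢
    linarith
  have hg' : r = 3 → gg b e * √3 ^ (n - 1) ≤ 4 / 3 * √3 ^ (n - 1) := fun h => by
    refine mul_le_mul_of_nonneg_right ?_ (by positivity)
    by_cases h3 : 1 ≤ b
    exacts [gg_le (.inl h3), gg_le (.inr (by omega))]
  have p2 : √3 ^ 2 = 3 := by rw [sq, h2]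
  have p3 : √3 ^ 3 = 3 * √3 := by rw [pow_succ, p2]
  have p4 : √3 ^ 4 = 9 := by rw [pow_succ, p3, mul_assoc, h2]; norm_num
  have p5 : √3 ^ 5 = 9 * √3 := by rw [pow_succ, p4]
  clear hr
  unfold rho at hg
  obtain rfl | rfl | rfl | rfl : n = 3 ∨ n = 4 ∨ n = 5 ∨ n = 6 := by omega
  · simp only [Nat.add_one_sub_one, p2] at *
    have : (4 : ℝ) ≤ k := by exact_mod_cast (by exact_mod_cast hk : 3 < k)
    interval_cases r <;> norm_num [Nat.fib_add_two] <;> linarith
  · simp only [Nat.add_one_sub_one, p3] at *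
    have : (6 : ℝ) ≤ k := by exact_mod_cast (by exact_mod_cast (by linarith : (5 : ℝ) < k) : 5 < k)
    interval_cases r <;> norm_num [Nat.fib_add_two] at hg' ⊢ <;> nlinarith
  · simp only [Nat.add_one_sub_one, p4] at *
    have : (10 : ℝ) ≤ k := by exact_mod_cast (by exact_mod_cast hk : 9 < k)
    interval_cases r <;> norm_num [Nat.fib_add_two] <;> linarith
  · simp only [Nat.add_one_sub_one, p5] at *
    have : (16 : ℝ) ≤ k := by
      exact_mod_cast (by exact_mod_cast (by linarith : (15 : ℝ) < k) : 15 < k)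
    interval_cases r <;> norm_num [Nat.fib_add_two] at hg' ⊢ <;> nlinarith

theorem fo_top [IsPretransitive G Ω] (α : Ω) : fo (⊤ : Subgroup G) α = univ :=
  eq_univ_of_forall fun b => let ⟨g, hg⟩ := exists_smul_eq G α b; mem_fo.2 ⟨g, trivial, hg⟩

theorem tr_step [IsPretransitive G Ω] [Nonempty Ω] (H : ∀ m < Fintype.card Ω, Tr.{u} m) :
    (Nat.card (ConjClasses G) : ℝ) ≤ ex (Fintype.card Ω * mu (Fintype.card Ω)) := by
  classical
  have hd : ∀ α : Ω, d (⊤ : Subgroup G) α = Fintype.card Ω := fun α => by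
    rw [← card_fo, fo_top, card_univ]
  have hfs : fs (⊤ : Subgroup G) = univ := eq_univ_of_forall fun _ => mem_fs.2 trivial
  have hk : cm (⊤ : Subgroup G) univ = Nat.card (⊤ : Subgroup G) * Nat.card (ConjClasses G) := by
    rw [← cc_equiv (Subgroup.topEquiv (G := G)), ← cm_self, hfs]
  have h0 : (0 : ℝ) < Nat.card (⊤ : Subgroup G) := by exact_mod_cast Nat.card_pos
  by_cases h1 : Fintype.card Ω = 1
  · have h2 : Subsingleton Ω := Fintype.card_le_one_iff_subsingleton.1 h1.le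
    have : Subsingleton G := ⟨fun a b => eq_of_smul_eq_smul fun ω : Ω => Subsingleton.elim _ _⟩
    rw [h1, mu_one, mul_zero, ex_zero]
    exact_mod_cast (Nat.card_le_card_of_surjective _
      ConjClasses.mk_surjective).trans (Finite.card_le_one_iff_subsingleton.2 this)
  have hT : ∀ α : Ω, cm (st (⊤ : Subgroup G) α) univ ≤ Nat.card (st (⊤ : Subgroup G) α) *
      ((∑ γ ∈ fo (⊤ : Subgroup G) α, rr (d (st (⊤ : Subgroup G) α) γ) *
        (1 / d (st (⊤ : Subgroup G) α) γ)) * ex (ee (st (⊤ : Subgroup G) α) (fo (⊤ : Subgroup G) α))) :=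
    fun α => by
      rw [← hfs]
      refine t_step ⊤ α fun γ => ?_
      rw [fo_top]
      refine tW H _ (fun a => ?_) γ
      by_cases ha : a = α
      · have := Fintype.card_pos (α := Ω)
        rw [d_one fun l hl => ha ▸ (mem_st.1 hl).2]
        omega
      rw [← card_fo]
      refine card_lt_univ_of_notMem (x := α) fun h => ha ?_
      obtain ⟨l, hl, h⟩ := mem_fo.1 h
      rwa [← hl.2, smul_left_cancel_iff] at h
  by_cases h2 : Fintype.card Ω = 2
  · obtain ⟨α⟩ := ‹Nonempty Ω›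
    have h3 := cm_of_st ((hT α).trans (mul_le_mul_of_nonneg_left (num' ⊤ α) (Nat.cast_nonneg _)))
    rw [hk, ee_fo, hd, rr, if_pos h2.le, one_mul] at h3
    exact le_of_mul_le_mul_left h3 h0
  have h3 : 3 ≤ Fintype.card Ω := by have := Fintype.card_pos (α := Ω); omega
  have h4 : ex (Fintype.card Ω - 1) = √3 ^ (Fintype.card Ω - 1) := by
    rw [← ex_nat, Nat.cast_sub (by omega), Nat.cast_one]
  rw [mu, if_neg h2, mul_sub, mul_one, mul_one_div_cancel (by positivity), h4]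
  by_contra! hk'
  refine (two_k (G := G) (Ω := Ω)).not_gt ((sum_lt_sum_of_nonempty univ_nonempty
    (g := fun α => Nat.card (st (⊤ : Subgroup G) α) * (2 * (Nat.card (ConjClasses G) : ℝ)))
    fun α _ => ?_).trans_eq ?_)
  · obtain ⟨b, e, h5, h6⟩ := num (⊤ : Subgroup G) α
    rw [hd, h4] at h6
    rw [fo_top] at h5
    refine (add_le_add ((hT α).trans (mul_le_mul_of_nonneg_left h6 (Nat.cast_nonneg _)))
      (sr_bound α _ fun x hx => (mem_filter.1 hx).2)).trans_lt ?_
    rw [← mul_add]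
    exact mul_lt_mul_of_pos_left (fin_num h3 hk' h5 (no_le _ _)) (by exact_mod_cast Nat.card_pos)
  · simp only [st_eq, hd, hk, sum_const, card_univ, nsmul_eq_mul]
    field_simp

theorem tr (m : ℕ) : Tr.{u} m := by
  induction m using Nat.strong_induction_on with | _ m ih
  intro Ω _ Q hQ hm h0
  classical
  subst hm
  have := Fintype.card_pos_iff.1 h0
  exact tr_step ih

theorem ee_le (L : Subgroup G) (h : 3 ≤ Fintype.card Ω) :
    ee L (univ : Finset Ω) ≤ Fintype.card Ω - 1 := by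
  refine (sum_le_sum (g := fun _ => mu (Fintype.card Ω)) fun a _ => mu_mono (d_pos L a)
    (card_fo L a ▸ card_le_univ _)).trans_eq ?_
  rw [sum_const, card_univ, nsmul_eq_mul, mu, if_neg (by omega), mul_sub, mul_one,
    mul_one_div_cancel (by positivity)]

variable (G Ω) in
/-- Maróti's bound `k(G) ≤ √3 ^ (n - 1)`. -/
theorem main (h : 3 ≤ Fintype.card Ω) :
    Nat.card (ConjClasses G) ^ 2 ≤ 3 ^ (Fintype.card Ω - 1) := by
  have h1 := (kW (n := Fintype.card Ω + 1) (fun m _ => tr m) (⊤ : Subgroup G) fun a : Ω =>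
    Nat.lt_succ_of_le (card_fo (⊤ : Subgroup G) a ▸ card_le_univ _)).trans (ex_mono (ee_le ⊤ h))
  rw [cc_equiv Subgroup.topEquiv, ← Nat.cast_one, ← Nat.cast_sub (by omega), ex_nat] at h1
  have h2 := pow_le_pow_left₀ (Nat.cast_nonneg _) h1 2
  rw [← pow_mul, mul_comm, pow_mul, sq √3, s3_sq] at h2
  exact_mod_cast h2

end CF.KD
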