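import Cfsg.Agent.Perm.Huppert3
import Cfsg.Agent.S0735

/-! Solvable 2-homogeneous groups. -/

set_option autoImplicit false

namespace CF.Perm

open Subgroup MulAction
open scoped IsMulCommutative Pointwise

variable {G Ω : Type*} [Group G] [MulAction G Ω]

theorem exists_of_twoHomog [DecidableEq Ω] (h2 : IsPretransitive G (Set.powersetCard Ω 2))
    {a b c d : Ω} (hab : a ≠ b) (hcd : c ≠ d) :
    ∃ g : G, (g • a = c ∧ g • b = d) ∨ (g • a = d ∧ g • b = c) := by
  obtain ⟨g, hg⟩ := h2.exists_smul_eq ⟨{a, b}, Finset.card_pair hab⟩ ⟨{c, d}, Finset.card_pair hcd⟩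
  have h1 : g • ({a, b} : Finset Ω) = {c, d} := congrArg Subtype.val hg
  have h3 : g • a ∈ ({c, d} : Finset Ω) := h1 ▸ Finset.smul_mem_smul_finset (by simp)
  have h4 : g • b ∈ ({c, d} : Finset Ω) := h1 ▸ Finset.smul_mem_smul_finset (by simp)
  have h5 : g • a ≠ g • b := fun h => hab (MulAction.injective g h)
  simp only [Finset.mem_insert, Finset.mem_singleton] at h3 h4
  refine ⟨g, ?_⟩
  rcases h3 with h3 | h3 <;> rcases h4 with h4 | h4 <;> simp_all

theorem semiaffine_of_twoHomog [Finite G] [Group.IsSolvable G] [DecidableEq Ω] [Nontrivial Ω]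
    (h2 : IsPretransitive G (Set.powersetCard Ω 2)) (N : Subgroup G) [hN : N.Normal]
    [IsMulCommutative N] [IsPretransitive N Ω] {o : Ω} (hreg : stabilizer N o = ⊥)
    (F : Type*) [Field F] [Finite F] (hF : Nat.card F = Nat.card Ω) :
    (∃ e : Ω ≃ F, (∀ g : G, ∃ (a : Fˣ) (b : F) (τ : F ≃+* F), ∀ x, e (g • x) = a * τ (e x) + b) ∧
      ∀ b : F, ∃ g : G, ∀ x, e (g • x) = e x + b) ∨
      Nat.card Ω ∈ ({9, 25, 49, 121, 529, 81} : Set ℕ) := by
  let ε : Additive N ≃ Ω := Equiv.ofBijective (fun n => n.toMul • o) ⟨fun a b h =>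
    Subtype.ext (eq_of_smul_eq_of_regular hreg a.toMul.2 b.toMul.2 h), exists_smul_eq N o⟩
  have := ε.nontrivial
  let φ : G →* Additive N ≃ₗ[ℤ] Additive N := MonoidHom.mk'
    (fun g => (MulAut.conjNormal (H := N) g).toAdditive.toIntLinearEquiv) fun a b => by
      rw [map_mul]; rfl
  let ρ := φ.noncommCoprod (DistribMulAction.toModuleAut (S := ℤˣ) ℤ (Additive N)) fun g u =>
    LinearEquiv.ext fun v => map_zsmul (φ g) u v
  have := Group.isSolvable_of_surjective ρ.rangeRestrict_surjective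
  have : Finite ρ.range := Finite.of_surjective _ ρ.rangeRestrict_surjective
  have h0 : ∀ v w, ε (v + w) = v.toMul • ε w := fun v w => mul_smul v.toMul w.toMul o
  have h1 : ∀ (g : G) v w, g • o = ε w → g • ε v = ε (φ g v + w) := fun g v w h => by
    rw [h0, ← h]
    change g • (v.toMul : G) • o = (g * v.toMul * g⁻¹) • g • o
    simp [mul_smul]
  have h5 : ∀ g u v, (⟨_, (g, u), rfl⟩ : ρ.range) • v = φ g (u • v) := fun _ _ _ => rfl
  have h3 : ε 0 = o := one_smul N o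
  refine (Tr.semilinear_or (G := ρ.range) (V := Additive N) (fun v w hv hw => ?_) F
    (hF.trans (Nat.card_congr ε).symm)).imp (fun ⟨e, he⟩ => ⟨ε.symm.trans e.toEquiv, fun g => ?_,
    fun b => ⟨(e.symm b).toMul, fun x => ?_⟩⟩) fun h => Nat.card_congr ε ▸ h
  · obtain ⟨g, ⟨g1, g2⟩ | ⟨g1, g2⟩⟩ := exists_of_twoHomog h2 (ε.injective.ne hv.symm)
      (ε.injective.ne hw.symm)
    · rw [h1 g v 0 (h3 ▸ g1), add_zero] at g2
      exact ⟨⟨_, (g, 1), rfl⟩, by simpa [h5] using g2⟩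
    · rw [h1 g v w (h3 ▸ g1), ε.apply_eq_iff_eq, add_eq_zero_iff_neg_eq, ← map_neg] at g2
      exact ⟨⟨_, (g, -1), rfl⟩, by simpa [h5] using g2⟩
  · obtain ⟨a, τ, h⟩ := he ⟨_, (g, 1), rfl⟩
    have h4 : ∀ v, e (φ g v) = a * τ (e v) := by simpa only [h5, one_smul] using h
    obtain ⟨w, hw⟩ := ε.surjective (g • o)
    obtain ⟨v, hv⟩ := exists_ne (0 : Additive N)
    refine ⟨Units.mk0 a fun h5 => hv (by simpa [h5] using h4 v), e w, τ, fun x => ?_⟩
    obtain ⟨v, rfl⟩ := ε.surjective x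
    simp [h1 g v w hw.symm, h4]
  · obtain ⟨v, rfl⟩ := ε.surjective x
    exact (congrArg (ε.symm.trans e.toEquiv) (h0 _ v).symm).trans (by simp [add_comm])

end CF.Perm
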