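import Cfsg.Agent.Perm.Regular

/-! Elementary properties of near-fields. -/

set_option autoImplicit false

namespace CF.Perm.NF

variable {F : Type*} [Cfsg.NearField F]

theorem add_mul' (a b c : F) : (a + b) * c = a * c + b * c := Cfsg.NearField.right_distrib a b c

theorem mul_zero' (a : F) : a * 0 = 0 := Cfsg.NearField.mul_zero a

/-- right multiplication as an additive homomorphism -/
def mulRightHom (c : F) : F →+ F := AddMonoidHom.mk' (fun x => x * c) (fun a b => add_mul' a b c)

theorem zero_mul' (a : F) : 0 * a = 0 := (mulRightHom a).map_zero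

theorem neg_mul' (a c : F) : (-a) * c = -(a * c) := (mulRightHom c).map_neg a

theorem sub_mul' (a b c : F) : (a - b) * c = a * c - b * c := (mulRightHom c).map_sub a b

theorem mul_ne_zero' {a b : F} (ha : a ≠ 0) (hb : b ≠ 0) : a * b ≠ 0 := by
  obtain ⟨c, hc, -⟩ := Cfsg.NearField.exists_inv b hb
  intro h
  apply ha
  rw [← mul_one a, ← hc, ← mul_assoc, h, zero_mul']

theorem one_ne_zero' : (1 : F) ≠ 0 := Cfsg.NearField.zero_ne_one.symm

theorem inv_ne_zero' {a b : F} (h : a * b = 1) : b ≠ 0 := by
  rintro rfl
  rw [mul_zero'] at h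
  exact Cfsg.NearField.zero_ne_one h

/-- the affine map `x ↦ x * a + b` -/
def affine {a a' : F} (h1 : a * a' = 1) (h2 : a' * a = 1) (b : F) : Equiv.Perm F where
  toFun x := x * a + b
  invFun y := (y - b) * a'
  left_inv x := by simp [mul_assoc, h1]
  right_inv y := by simp [mul_assoc, h2]

end CF.Perm.NF
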