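import Mathlib

/-! Duads, synthemes and totals. -/

namespace CF.Perm

open Finset

/-- the fifteen synthemes, as fixed-point-free involutions -/
def syn : Fin 15 → Fin 6 → Fin 6 := ![![1, 0, 3, 2, 5, 4], ![1, 0, 4, 5, 2, 3], ![1, 0, 5, 4, 3, 2], ![2, 3, 0, 1, 5, 4], ![2, 4, 0, 5, 1, 3], ![2, 5, 0, 4, 3, 1], ![3, 2, 1, 0, 5, 4], ![3, 4, 5, 0, 1, 2], ![3, 5, 4, 0, 2, 1], ![4, 2, 1, 5, 0, 3], ![4, 3, 5, 1, 0, 2], ![4, 5, 3, 2, 0, 1], ![5, 2, 1, 4, 3, 0], ![5, 3, 4, 1, 2, 0], ![5, 4, 3, 2, 1, 0]]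

theorem exists_syn (f : Fin 6 → Fin 6) (h : ∀ i, f i ≠ i ∧ f (f i) = i) : ∃ k, syn k = f := by
  have : ∀ a b c d e g : Fin 6, (∀ i, ![a, b, c, d, e, g] i ≠ i ∧ ![a, b, c, d, e, g] (![a, b, c, d, e, g] i) = i) →
      ∃ k, syn k = ![a, b, c, d, e, g] := by decide +kernel
  have e : f = ![f 0, f 1, f 2, f 3, f 4, f 5] := by ext i; fin_cases i <;> rfl
  rw [e] at h ⊢
  exact this _ _ _ _ _ _ h

/-- incidence with the secant line `i j` in the model -/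
def onS (i j : Fin 6) : Fin 6 ⊕ Fin 15 → Prop
  | .inl l => l = i ∨ l = j
  | .inr k => syn k i = j

/-- not joined by a secant line -/
def nc : Fin 6 ⊕ Fin 15 → Fin 6 ⊕ Fin 15 → Prop
  | .inr k, .inr k' => ∀ i, syn k i ≠ syn k' i
  | _, _ => False

instance (i j : Fin 6) : DecidablePred (onS i j) := fun u => by cases u <;> unfold onS <;> infer_instance
instance : DecidableRel nc := fun u v => by cases u <;> cases v <;> unfold nc <;> infer_instance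

theorem nc_iff : ∀ u v, u ≠ v → (nc u v ↔ ∀ i j, i ≠ j → onS i j u → ¬ onS i j v) := by decide +kernel

theorem card_tot : ∀ u v, nc u v →
    (univ.filter fun w => nc u w ∧ nc v w ∧ ∃ z, nc u z ∧ nc v z ∧ nc w z).card ≤ 3 := by decide +kernel

/-- collinearity in the model -/
def col (u v w : Fin 6 ⊕ Fin 15) : Prop := (∃ i j, i ≠ j ∧ onS i j u ∧ onS i j v ∧ onS i j w) ∨
  nc u v ∧ (w = u ∨ w = v ∨ nc u w ∧ nc v w ∧ ∃ z, nc u z ∧ nc v z ∧ nc w z)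

end CF.Perm
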