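import Cfsg.Agent.Leech.Steiner
import Cfsg.Agent.Perm.Syn

/-! The projective plane of order four: arcs, hyperovals, and the duad-syntheme model. -/

namespace CF.Perm

open Cfsg Finset CF.Leech Pointwise

theorem card_eq_of_rel {α β : Type*} {s : Finset α} {t : Finset β} (r : α → β → Prop)
    (h1 : ∀ a ∈ s, ∃! b, b ∈ t ∧ r a b) (h2 : ∀ b ∈ t, ∃! a, a ∈ s ∧ r a b) : s.card = t.card :=
  card_bij (fun a ha => (h1 a ha).choose) (fun a ha => (h1 a ha).choose_spec.1.1)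
    (fun a ha b hb e => (h2 _ (h1 a ha).choose_spec.1.1).unique ⟨ha, (h1 a ha).choose_spec.1.2⟩
      ⟨hb, e ▸ (h1 b hb).choose_spec.1.2⟩) fun b hb => by
      obtain ⟨a, ⟨h3, h4⟩, -⟩ := h2 b hb
      exact ⟨a, h3, ((h1 a h3).choose_spec.2 b ⟨hb, h4⟩).symm⟩

variable {α : Type*} [Fintype α] [DecidableEq α] {L : Set (Finset α)} {S T l t : Finset α} {a b x : α}

/-- no three points on a line -/
def Arc (L : Set (Finset α)) (S : Finset α) : Prop := ∀ l ∈ L, (l ∩ S).card ≤ 2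

open Classical in
/-- points on no secant line -/
noncomputable def ext (L : Set (Finset α)) (S : Finset α) : Finset α :=
  univ.filter fun x => ∀ l ∈ L, x ∈ l → (l ∩ S).card ≤ 1

theorem mem_ext : x ∈ ext L S ↔ ∀ l ∈ L, x ∈ l → (l ∩ S).card ≤ 1 := by simp [ext]

omit [Fintype α] in
theorem Arc.mono (h : Arc L S) (hT : T ⊆ S) : Arc L T := fun l hl =>
  (card_le_card (inter_subset_inter_left hT)).trans (h l hl)

theorem Arc.mem_ext (h : Arc L (insert x S)) (hx : x ∉ S) : x ∈ ext L S := CF.Perm.mem_ext.2 fun l hl e => by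
  have := h l hl
  rw [inter_insert_of_mem e, card_insert_of_notMem (by simp [hx])] at this; omega

theorem Arc.insert (h : Arc L S) (hx : x ∈ ext L S) : Arc L (insert x S) := fun l hl => by
  by_cases e : x ∈ l
  · rw [inter_insert_of_mem e]
    exact (card_insert_le _ _).trans (Nat.succ_le_succ (CF.Perm.mem_ext.1 hx l hl e))
  · rw [inter_insert_of_notMem e]; exact h l hl

/-- projective plane of order four -/
structure Pl (L : Set (Finset α)) : Prop where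
  card : Fintype.card α = 21
  st : IsSteinerSystem 2 5 L

namespace Pl
variable (h : Pl L)
include h

theorem line (e : a ≠ b) : ∃ l ∈ L, a ∈ l ∧ b ∈ l := by
  simpa [insert_subset_iff] using (h.st.2 _ (card_pair e)).exists

theorem eq (hl : l ∈ L) (ht : t ∈ L) (e : a ≠ b) (h1 : a ∈ l) (h2 : b ∈ l) (h3 : a ∈ t) (h4 : b ∈ t) :
    l = t := steiner_eq_of_subset h.st hl ht (s := {a, b}) (by simp [insert_subset_iff, *])
  (by simp [insert_subset_iff, *]) (card_pair e).ge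

theorem meet (hl : l ∈ L) (ht : t ∈ L) : ∃ x, x ∈ l ∧ x ∈ t := by
  have := meet_pos (m := fun j => [0, 4, 0, 0, 0, 1].getD j 0) ht fun s hs => steiner_meet h.st hl (fun j => [0, 4, 0, 0, 0, 1].getD j 0)
    (by rw [h.card]; decide +kernel) (s := s) hs
  simpa [Finset.Nonempty] using (card_pos (s := l ∩ t)).1 (Nat.pos_of_ne_zero fun e => by simp [e] at this)

theorem notMem_ext (h2 : 2 ≤ S.card) (hx : x ∈ ext L S) : x ∉ S := fun e => by
  obtain ⟨y, hy, e'⟩ := exists_mem_ne h2 x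
  obtain ⟨l, hl, h3, h4⟩ := h.line e'
  exact e' (card_le_one.1 (mem_ext.1 hx l hl h4) _ (mem_inter.2 ⟨h3, hy⟩) _ (mem_inter.2 ⟨h4, e⟩))

theorem card_inter_ext (hT : Arc L T) (h3 : T.card ≤ 3) (ht : t ∈ L) (d : Disjoint t T) :
    (t ∩ ext L T).card + T.card.choose 2 = 5 := by
  rw [← h.st.1 t ht, ← card_inter_add_card_sdiff t (ext L T), ← card_powersetCard]
  refine congrArg _ (card_eq_of_rel (fun P x => ∃ l ∈ L, P ⊆ l ∧ x ∈ l) (fun P hP => ?_) fun x hx => ?_)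
  · obtain ⟨h1, h2⟩ := mem_powersetCard.1 hP
    obtain ⟨l, ⟨hl, h4⟩, h5⟩ := h.st.2 P h2
    obtain ⟨x, h6, h7⟩ := h.meet hl ht
    refine ⟨x, ⟨mem_sdiff.2 ⟨h7, fun e => ?_⟩, l, hl, h4, h6⟩, fun y ⟨hy, l', hl', h8, h9⟩ =>
      by_contra fun e => ?_⟩
    · have := (card_le_card (subset_inter h4 h1)).trans (mem_ext.1 e l hl h6); omega
    · obtain ⟨p, hp⟩ := card_pos.1 (h2.symm ▸ two_pos)
      exact disjoint_left.1 d (h.eq hl ht e (h5 l' ⟨hl', h8⟩ ▸ h9) h6 (mem_sdiff.1 hy).1 h7 ▸ h4 hp) (h1 hp)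
  · obtain ⟨h1, h2⟩ := mem_sdiff.1 hx
    obtain ⟨l, hl, h4, h5⟩ := by simpa only [mem_ext, not_forall, not_le, exists_prop] using h2
    have h6 := le_antisymm (hT l hl) h5
    refine ⟨l ∩ T, ⟨mem_powersetCard.2 ⟨inter_subset_right, h6⟩, l, hl, inter_subset_left, h4⟩,
      fun P ⟨hP, l', hl', h7, h8⟩ => ?_⟩
    obtain ⟨h9, h10⟩ := mem_powersetCard.1 hP
    obtain ⟨p, hp⟩ := card_pos.1 (show 0 < (P ∩ (l ∩ T)).card by
      have := card_union_add_card_inter P (l ∩ T)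
      have := card_le_card (union_subset h9 (inter_subset_right (s₁ := l))); omega)
    simp only [mem_inter] at hp
    obtain rfl := h.eq hl hl' (fun e : x = p => disjoint_left.1 d h1 (e ▸ hp.2.2)) h4 hp.2.1 h8 (h7 hp.1)
    exact eq_of_subset_of_card_le (subset_inter h7 h9) (by omega)

open Classical in
theorem card_tangent (hT : Arc L (insert a T)) (ha : a ∉ T) :
    (univ.filter fun t => t ∈ L ∧ a ∈ t ∧ Disjoint t T).card + T.card = 5 := by
  have h1 := steiner_lam h.st (s := {a}) (by simp)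
  rw [h.card, Set.ncard_eq_toFinset_card', ← card_filter_add_card_filter_not (fun t => Disjoint t T),
    ← card_eq_of_rel (s := T) (t := filter (fun t => ¬ Disjoint t T) _) (fun b t => b ∈ t) (fun b hb => ?_) fun t ht => ?_] at h1
  · rw [show (univ.filter fun t => t ∈ L ∧ a ∈ t ∧ Disjoint t T) = {b | b ∈ L ∧ {a} ⊆ b}.toFinset.filter
      (Disjoint · T) by ext; simp [and_assoc]]
    simp only [card_singleton, Nat.choose_one_right, Nat.reduceSub] at h1; omega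
  · have e : a ≠ b := fun e => ha (e ▸ hb)
    obtain ⟨l, hl, h2, h3⟩ := h.line e
    exact ⟨l, ⟨by simpa [hl, h2, not_disjoint_iff] using ⟨b, h3, hb⟩, h3⟩, fun t ht => by
      simp only [mem_filter, Set.mem_toFinset, Set.mem_ofPred_eq, singleton_subset_iff] at ht
      exact h.eq ht.1.1.1 hl e ht.1.1.2 ht.2 h2 h3⟩
  · simp only [mem_filter, Set.mem_toFinset, Set.mem_ofPred_eq, singleton_subset_iff,
      not_disjoint_iff] at ht
    obtain ⟨⟨h2, h3⟩, b, h4, h5⟩ := ht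
    exact ⟨b, ⟨h5, h4⟩, fun c hc => card_le_one.1 (mem_ext.1 (hT.mem_ext ha) t h2 h3) _
      (mem_inter.2 hc.symm) _ (mem_inter.2 ⟨h4, h5⟩)⟩

theorem card_ext {k : ℕ} (hS : Arc L S) (hk : S.card = k + 1) (h1 : 1 ≤ k) (h3 : k ≤ 3) :
    (ext L S).card = (5 - k) * (4 - k.choose 2) := by
  classical
  obtain ⟨a, T, ha, rfl, rfl⟩ := card_eq_succ.1 hk
  have hT := hS.mono (subset_insert a T)
  have n : ∀ x ∈ ext L (insert a T), x ≠ a := fun x hx e =>
    h.notMem_ext (by omega) hx (e ▸ mem_insert_self _ _)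
  have d : ∀ x ∈ ext L (insert a T), ∀ t ∈ L, a ∈ t → x ∈ t → Disjoint t T := fun x hx t ht h4 h5 => by
    have := mem_ext.1 hx t ht h5
    rw [inter_insert_of_mem h4, card_insert_of_notMem (by simp [ha])] at this
    exact disjoint_iff_inter_eq_empty.2 (card_eq_zero.1 (by omega))
  have := card_mul_eq_card_mul (s := univ.filter fun t => t ∈ L ∧ a ∈ t ∧ Disjoint t T)
    (t := ext L (insert a T)) (fun t x => x ∈ t) (m := 4 - T.card.choose 2) (n := 1) (fun t ht => by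
      simp only [mem_filter, mem_univ, true_and] at ht
      have h4 := h.card_inter_ext hT h3 ht.1 ht.2.2
      rw [← card_erase_add_one (mem_inter.2 ⟨ht.2.1, hS.mem_ext ha⟩)] at h4
      rw [show 4 - _ = ((t ∩ ext L T).erase a).card by omega]
      congr 1; ext x
      simp only [mem_bipartiteAbove, mem_erase, mem_inter]
      refine ⟨fun ⟨h5, h6⟩ => ⟨n x h5, h6, mem_ext.2 fun l hl e => (card_le_card (inter_subset_inter_left
        (subset_insert a T))).trans (mem_ext.1 h5 l hl e)⟩, fun ⟨h5, h6, h7⟩ => ⟨mem_ext.2 fun l hl e => ?_, h6⟩⟩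
      by_cases e' : a ∈ l
      · rw [h.eq hl ht.1 h5 e e' h6 ht.2.1, inter_insert_of_mem ht.2.1, disjoint_iff_inter_eq_empty.1 ht.2.2]; simp
      · rw [inter_insert_of_notMem e']; exact mem_ext.1 h7 l hl e) fun x hx => by
      obtain ⟨l, hl, h4, h5⟩ := h.line (n x hx)
      refine card_eq_one.2 ⟨l, eq_singleton_iff_unique_mem.2 ⟨?_, fun t ht => ?_⟩⟩
      · simp [hl, h4, h5, d x hx l hl h5 h4]
      · simp only [mem_bipartiteBelow, mem_filter, mem_univ, true_and] at ht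
        exact h.eq ht.1.1 hl (n x hx) ht.2 ht.1.2.1 h4 h5
  rw [mul_one] at this
  rw [← this, Nat.eq_sub_of_add_eq (h.card_tangent hS ha)]

theorem hyperoval (hS : Arc L S) (h4 : S.card = 4) : ∃! H : Finset α, (H.card = 6 ∧ Arc L H) ∧ S ⊆ H := by
  have h1 := h.card_ext hS (k := 3) h4 (by omega) le_rfl
  have d : Disjoint S (ext L S) := disjoint_right.2 fun x hx => h.notMem_ext (by omega) hx
  refine ⟨S ∪ ext L S, ⟨⟨by rw [card_union_of_disjoint d, h4, h1]; rfl, fun l hl => ?_⟩, subset_union_left⟩,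
    fun H ⟨⟨h2, h3⟩, h5⟩ => ?_⟩
  · rw [inter_union_distrib_left]
    refine (card_union_le _ _).trans ?_
    have h2 := card_le_card (inter_subset_right (s₁ := l) (s₂ := ext L S))
    rcases (l ∩ ext L S).eq_empty_or_nonempty with e | ⟨x, hx⟩
    · simpa [e] using hS l hl
    have h3 := mem_ext.1 (mem_inter.1 hx).2 l hl (mem_inter.1 hx).1
    rcases (l ∩ S).eq_empty_or_nonempty with e | ⟨a, ha⟩
    · rw [e, card_empty]; simpa [h1] using h2
    obtain ⟨h5, h6⟩ := mem_inter.1 ha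
    have h7 := h.card_inter_ext (hS.mono (erase_subset a S)) (by rw [card_erase_of_mem h6]; omega) hl
      (disjoint_left.2 fun b hb hb' => (mem_erase.1 hb').1
        (card_le_one.1 h3 _ (mem_inter.2 ⟨hb, mem_of_mem_erase hb'⟩) _ ha))
    rw [card_erase_of_mem h6, h4, ← card_erase_add_one (mem_inter.2 ⟨h5, Arc.mem_ext
      ((insert_erase h6).symm ▸ hS) (notMem_erase _ _)⟩)] at h7
    have := card_le_card (show l ∩ ext L S ⊆ (l ∩ ext L (S.erase a)).erase a from fun y hy =>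
      mem_erase.2 ⟨fun e => disjoint_left.1 d h6 (e ▸ (mem_inter.1 hy).2), mem_inter.2 ⟨(mem_inter.1 hy).1,
        mem_ext.2 fun t ht e => (card_le_card (inter_subset_inter_left (erase_subset _ _))).trans
          (mem_ext.1 (mem_inter.1 hy).2 t ht e)⟩⟩)
    simp only [Nat.choose] at h7; omega
  · rw [← union_sdiff_of_subset h5, eq_of_subset_of_card_le (s := H \ S) (t := ext L S) (fun x hx =>
      (h3.mono (insert_subset (mem_sdiff.1 hx).1 h5)).mem_ext (mem_sdiff.1 hx).2)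
      (by rw [card_sdiff_of_subset h5, h1, h2, h4]; rfl)]

theorem count {k n m : ℕ} (hm : ∀ S, S.card = k → Arc L S →
      {H : Finset α | (H.card = n ∧ Arc L H) ∧ S ⊆ H}.ncard = m) :
    {S : Finset α | S.card = n ∧ Arc L S}.ncard * n.choose k =
      {S : Finset α | S.card = k ∧ Arc L S}.ncard * m := by
  classical
  rw [Set.ncard_eq_toFinset_card', Set.ncard_eq_toFinset_card']
  refine card_mul_eq_card_mul (fun H S => S ⊆ H) (fun H hH => ?_) fun S hS => ?_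
  · simp only [Set.mem_toFinset, Set.mem_ofPred_eq] at hH
    rw [← hH.1, ← card_powersetCard]
    congr 1; ext S
    simp only [mem_bipartiteAbove, Set.mem_toFinset, Set.mem_ofPred_eq, mem_powersetCard]
    exact ⟨fun h => ⟨h.2, h.1.1⟩, fun h => ⟨⟨h.2, hH.2.mono h.1⟩, h.1⟩⟩
  · simp only [Set.mem_toFinset, Set.mem_ofPred_eq] at hS
    rw [← hm S hS.1 hS.2, Set.ncard_eq_toFinset_card']
    congr 1; ext; simp

theorem count_succ {k : ℕ} (h1 : 1 ≤ k) (h3 : k ≤ 3) :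
    {S : Finset α | S.card = k + 2 ∧ Arc L S}.ncard * (k + 2).choose (k + 1) =
      {S : Finset α | S.card = k + 1 ∧ Arc L S}.ncard * ((5 - k) * (4 - k.choose 2)) :=
  h.count fun S hk hS => by
    have n := fun x => h.notMem_ext (S := S) (x := x) (by omega)
    rw [← h.card_ext hS hk h1 h3, ← Set.ncard_coe_finset, ← Set.InjOn.ncard_image
      (f := fun x => insert x S) fun x hx y hy e => insert_inj (n x hx) |>.1 e]
    congr 1; ext H
    refine ⟨fun ⟨⟨h4, h5⟩, h6⟩ => ?_, ?_⟩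
    · obtain ⟨x, hx⟩ := card_eq_one.1 (show (H \ S).card = 1 by rw [card_sdiff_of_subset h6]; omega)
      have e : insert x S = H := by rw [insert_eq, ← hx, sdiff_union_of_subset h6]
      exact ⟨x, Arc.mem_ext (e ▸ h5) (mem_sdiff.1 (hx.ge (mem_singleton_self x))).2, e⟩
    · rintro ⟨x, hx, rfl⟩
      exact ⟨⟨by rw [card_insert_of_notMem (n x hx), hk], hS.insert hx⟩, subset_insert _ _⟩

theorem count_four : {S : Finset α | S.card = 4 ∧ Arc L S}.ncard = 2520 := by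
  have h1 := h.count_succ (k := 1) le_rfl (by omega)
  have h2 := h.count_succ (k := 2) (by omega) (by omega)
  rw [show {S : Finset α | S.card = 1 + 1 ∧ Arc L S} = ↑(powersetCard 2 (univ : Finset α)) by
    ext S; simpa [Arc] using fun (e : S.card = 2) l _ => (card_le_card inter_subset_right).trans e.le,
    Set.ncard_coe_finset, card_powersetCard, card_univ, h.card] at h1
  simp only [Nat.choose, Nat.reduceAdd] at h1 h2
  omega

theorem count_six : {S : Finset α | S.card = 6 ∧ Arc L S}.ncard = 168 := by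
  have := h.count (k := 4) (n := 6) (m := 1) fun S h1 h2 => Set.ncard_eq_one.2 (by
    obtain ⟨H, h3, h4⟩ := h.hyperoval h2 h1
    exact ⟨H, Set.eq_singleton_iff_unique_mem.2 ⟨h3, h4⟩⟩)
  simp only [h.count_four, Nat.choose] at this
  omega

theorem exists_model (e : Fin 6 ↪ α) (hH : Arc L (univ.map e)) : ∃ Φ : α ≃ Fin 6 ⊕ Fin 15,
    (∀ i, Φ (e i) = .inl i) ∧ (∀ l ∈ L, ∀ i j, i ≠ j → e i ∈ l → e j ∈ l → ∀ x, x ∈ l ↔ onS i j (Φ x)) ∧
      ∀ l ∈ L, ∀ a ∈ l, ∀ b ∈ l, a ≠ b → ∀ x, x ∈ l ↔ col (Φ a) (Φ b) (Φ x) := by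
  classical
  have h1 : ∀ l ∈ L, ∀ i j k, i ≠ j → e i ∈ l → e j ∈ l → e k ∈ l → k = i ∨ k = j :=
    fun l hl i j k h1 h2 h3 h4 => by
      by_contra! h5
      have := (card_le_card (show map e {i, j, k} ⊆ l ∩ univ.map e by
        simp [map_insert, insert_subset_iff, h2, h3, h4])).trans (hH l hl)
      rw [card_map, card_eq_three.2 ⟨_, _, _, h1, h5.1.symm, h5.2.symm, rfl⟩] at this; omega
  have h2 : ∀ l ∈ L, ∀ i, e i ∈ l → ∃ j, j ≠ i ∧ e j ∈ l := fun l hl i hi => by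
    have := h.card_tangent (a := e i) (T := (univ.map e).erase (e i))
      (by rw [insert_erase (mem_map_of_mem e (mem_univ i))]; exact hH) (notMem_erase _ _)
    rw [card_erase_of_mem (by simp), card_map, card_univ, Fintype.card_fin, Nat.add_eq_right,
      card_eq_zero, filter_eq_empty_iff] at this
    simpa [hl, hi, not_disjoint_iff, and_comm, -mem_map'] using this (mem_univ l)
  have h3 : ∀ x, (∀ i, e i ≠ x) → ∃ k, ∀ l ∈ L, x ∈ l → ∀ i j, i ≠ j → e i ∈ l → (e j ∈ l ↔ syn k i = j) :=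
    fun x hx => by
    choose t t1 t2 t3 using fun i => h.line (hx i)
    choose f f1 f2 using fun i => h2 _ (t1 i) i (t2 i)
    have h3 : ∀ l ∈ L, x ∈ l → ∀ i j, i ≠ j → e i ∈ l → (e j ∈ l ↔ f i = j) := fun l hl h3 i j h4 h5 => by
      rw [h.eq hl (t1 i) (hx i) h5 h3 (t2 i) (t3 i)]
      exact ⟨fun h6 => (h1 _ (t1 i) i j _ h4 (t2 i) h6 (f2 i)).resolve_left (f1 i), fun e => e ▸ f2 i⟩
    obtain ⟨k, rfl⟩ := exists_syn f fun i => ⟨f1 i, (h3 _ (t1 i) (t3 i) _ _ (f1 i) (f2 i)).1 (t2 i)⟩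
    exact ⟨k, h3⟩
  choose κ hκ using h3
  let Φ : α → Fin 6 ⊕ Fin 15 := fun x => if hx : ∀ i, e i ≠ x then .inr (κ x hx) else
    .inl (not_forall_not.1 hx).choose
  have p1 : ∀ i, Φ (e i) = .inl i := fun i => by
    have hx : ¬ ∀ j, e j ≠ e i := fun h => h i rfl
    exact (dif_neg hx).trans (congrArg _ (e.injective (not_forall_not.1 hx).choose_spec))
  have p2 : ∀ l ∈ L, ∀ i j, i ≠ j → e i ∈ l → e j ∈ l → ∀ x, x ∈ l ↔ onS i j (Φ x) :=
    fun l hl i j h4 h5 h6 x => by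
      by_cases hx : ∀ i, e i ≠ x
      · rw [show Φ x = _ from dif_pos hx]
        refine ⟨fun h7 => (hκ x hx l hl h7 i j h4 h5).1 h6, fun h7 => ?_⟩
        obtain ⟨t, t1, t2, t3⟩ := h.line (hx i)
        exact h.eq t1 hl (e.injective.ne h4) t2 ((hκ x hx t t1 t3 i j h4 t2).2 h7) h5 h6 ▸ t3
      · obtain ⟨k, rfl⟩ := not_forall_not.1 hx
        rw [p1]
        exact ⟨h1 l hl i j k h4 h5 h6, by rintro (rfl | rfl) <;> assumption⟩
  have p3 : ∀ i j, i ≠ j → ∃ l ∈ L, ∀ x, x ∈ l ↔ onS i j (Φ x) := fun i j h4 => by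
    obtain ⟨l, hl, h5, h6⟩ := h.line (e.injective.ne h4)
    exact ⟨l, hl, p2 l hl i j h4 h5 h6⟩
  have inj : Function.Injective Φ := fun x y h4 => by_contra fun h5 => by
    obtain ⟨i, j, k, m, a1, a2, a3, a4, a5, a6⟩ := (by decide +kernel : ∀ u, ∃ i j k m, i ≠ j ∧ k ≠ m ∧
      m ≠ i ∧ m ≠ j ∧ onS i j u ∧ onS k m u) (Φ x)
    obtain ⟨l, hl, l1⟩ := p3 i j a1
    obtain ⟨t, ht, t1⟩ := p3 k m a2
    have := (l1 (e m)).1 (h.eq ht hl h5 ((t1 x).2 a6) ((t1 y).2 (h4 ▸ a6)) ((l1 x).2 a5)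
      ((l1 y).2 (h4 ▸ a5)) ▸ (t1 _).2 (p1 m ▸ .inr rfl))
    rw [p1] at this
    exact this.elim a3 a4
  have p4 : ∀ l ∈ L, ∀ a ∈ l, ∀ b ∈ l, a ≠ b → ∀ i j, i ≠ j → onS i j (Φ a) → onS i j (Φ b) →
      ∀ x, x ∈ l ↔ onS i j (Φ x) := fun l hl a ha b hb h4 i j h5 h6 h7 => by
    obtain ⟨t, ht, t1⟩ := p3 i j h5
    exact h.eq ht hl h4 ((t1 a).2 h6) ((t1 b).2 h7) ha hb ▸ t1
  refine ⟨.ofBijective Φ ((Fintype.bijective_iff_injective_and_card _).2 ⟨inj, by simp [h.card]⟩), p1, p2,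
    fun l hl a ha b hb h4 x => ?_⟩
  change _ ↔ col (Φ a) (Φ b) (Φ x)
  by_cases h5 : nc (Φ a) (Φ b)
  swap
  · obtain ⟨i, j, h6, h7, h8⟩ := by simpa only [nc_iff _ _ (inj.ne h4), not_forall, exists_prop,
      not_not] using h5
    exact ⟨fun h9 => .inl ⟨i, j, h6, h7, h8, (p4 l hl a ha b hb h4 i j h6 h7 h8 x).1 h9⟩, by
      rintro (⟨i, j, h6, h7, h8, h9⟩ | h9)
      exacts [(p4 l hl a ha b hb h4 i j h6 h7 h8 x).2 h9, (h5 h9.1).elim]⟩
  have h6 : ∀ u ∈ l, ∀ v ∈ l, u ≠ v → nc (Φ u) (Φ v) := fun u hu v hv h6 =>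
    (nc_iff _ _ (inj.ne h6)).2 fun i j h7 h8 h9 => (nc_iff _ _ (inj.ne h4)).1 h5 i j h7
      ((p4 l hl u hu v hv h6 i j h7 h8 h9 a).1 ha) ((p4 l hl u hu v hv h6 i j h7 h8 h9 b).1 hb)
  have h7 : (l \ {a, b}).card = 3 := by
    rw [card_sdiff_of_subset (by simp [insert_subset_iff, *]), h.st.1 l hl, card_pair h4]
  have h8 := eq_of_subset_of_card_le (s := (l \ {a, b}).map ⟨Φ, inj⟩) (fun w hw => by
    obtain ⟨w, hw', rfl⟩ := mem_map.1 hw
    clear hw; have hw := hw'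
    obtain ⟨z, hz, h8⟩ := exists_mem_ne (h7.ge.trans_lt' (by omega)) w
    simp only [mem_sdiff, mem_insert, mem_singleton, not_or] at hw hz
    exact mem_filter.2 ⟨mem_univ _, h6 a ha w hw.1 (Ne.symm hw.2.1), h6 b hb w hw.1 (Ne.symm hw.2.2), _,
      h6 a ha z hz.1 (Ne.symm hz.2.1), h6 b hb z hz.1 (Ne.symm hz.2.2), h6 w hw.1 z hz.1 h8.symm⟩)
    ((card_tot _ _ h5).trans (by rw [card_map, h7]))
  have h9 := congrArg (Φ x ∈ ·) h8
  simp only [mem_filter, mem_univ, true_and, eq_iff_iff] at h9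
  rw [col, or_iff_right fun ⟨i, j, a1, a2, a3, _⟩ => (nc_iff _ _ (inj.ne h4)).1 h5 i j a1 a2 a3,
    and_iff_right h5, ← h9, inj.eq_iff, inj.eq_iff, show Φ x = (⟨Φ, inj⟩ : α ↪ _) x from rfl, mem_map']
  by_cases e1 : x = a <;> by_cases e2 : x = b <;> simp [*]

theorem exists_iso {β : Type*} [Fintype β] [DecidableEq β] {L' : Set (Finset β)} (h' : Pl L')
    (e : Fin 6 ↪ α) (hH : Arc L (univ.map e)) (e' : Fin 6 ↪ β) (hH' : Arc L' (univ.map e')) :
    ∃ ψ : α ≃ β, (∀ i, ψ (e i) = e' i) ∧ (fun b => b.image ψ) '' L = L' := by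
  obtain ⟨Φ, p1, -, p2⟩ := h.exists_model e hH
  obtain ⟨Ψ, q1, -, q2⟩ := h'.exists_model e' hH'
  have k : ∀ l ∈ L, ∀ l' ∈ L', ∀ a ∈ l, ∀ b ∈ l, a ≠ b → (Φ.trans Ψ.symm) a ∈ l' →
      (Φ.trans Ψ.symm) b ∈ l' → l.image (Φ.trans Ψ.symm) = l' := fun l hl l' hl' a ha b hb h1 h2 h3 => by
    ext x
    obtain ⟨x, rfl⟩ := (Φ.trans Ψ.symm).surjective x
    rw [(Equiv.injective _).mem_finset_image, p2 l hl a ha b hb h1,
      q2 l' hl' _ h2 _ h3 ((Equiv.injective _).ne h1)]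
    simp
  refine ⟨Φ.trans Ψ.symm, fun i => by simp [p1, ← q1], Set.ext fun l' => ⟨?_, fun hl' => ?_⟩⟩
  · rintro ⟨l, hl, rfl⟩
    obtain ⟨a, ha, b, hb, h1⟩ := one_lt_card.1 ((h.st.1 l hl).ge.trans_lt' (by omega))
    obtain ⟨l', hl', h2, h3⟩ := h'.line ((Φ.trans Ψ.symm).injective.ne h1)
    exact (congrArg (· ∈ L') (k l hl l' hl' a ha b hb h1 h2 h3)).ge hl'
  · obtain ⟨a, ha, b, hb, h1⟩ := one_lt_card.1 ((h'.st.1 l' hl').ge.trans_lt' (by omega))
    obtain ⟨a, rfl⟩ := (Φ.trans Ψ.symm).surjective a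
    obtain ⟨b, rfl⟩ := (Φ.trans Ψ.symm).surjective b
    obtain ⟨l, hl, h2, h3⟩ := h.line fun e => h1 (congrArg _ e)
    exact ⟨l, hl, k l hl l' hl' a h2 b h3 (fun e => h1 (congrArg _ e)) ha hb⟩

theorem aut_eq_one (e : Fin 6 ↪ α) (hH : Arc L (univ.map e)) {g : Equiv.Perm α}
    (hg : g ∈ setSystemAut L) (h1 : ∀ i, g (e i) = e i) : g = 1 := by
  obtain ⟨Φ, -, p, -⟩ := h.exists_model e hH
  ext x
  refine Φ.injective ((by decide +kernel : ∀ u v, (∀ i j, i ≠ j → (onS i j u ↔ onS i j v)) → u = v) _ _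
    fun i j h2 => ?_)
  obtain ⟨l, hl, h3, h4⟩ := h.line (e.injective.ne h2)
  have h5 : g • l ∈ L := by rw [← MulAction.mem_stabilizer_iff.1 hg]; exact Set.smul_mem_smul_set hl
  have h6 : ∀ y, g y ∈ g • l ↔ y ∈ l := fun y => smul_mem_smul_finset_iff g
  rw [← p _ h5 i j h2 (h1 i ▸ (h6 _).2 h3) (h1 j ▸ (h6 _).2 h4), h6, p l hl i j h2 h3 h4]; rfl

end Pl

omit [Fintype α] [DecidableEq α] in
theorem exists_emb {n : ℕ} (h : S.card = n) : ∃ e : Fin n ↪ α, univ.map e = S :=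
  ⟨(S.equivFinOfCardEq h).symm.toEmbedding.trans (.subtype _), by
    rw [← map_map, map_univ_equiv, univ_eq_attach, attach_map_val]⟩

end CF.Perm
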